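import Cfsg.Prelude.Def_LieExceptional

/-!
Generic theory of groups with a (B, N)-pair: Bruhat decomposition, length, parabolic subgroups and the
simplicity criterion of Tits.
-/

set_option autoImplicit false

namespace CA.BN

open Cfsg
open scoped Pointwise

variable {G : Type*} [Group G] (P : BNPair G)

/-- `g ∈ B n B`. -/
def DC (g n : G) : Prop := ∃ b ∈ P.B, ∃ b' ∈ P.B, g = b * n * b'

theorem dc_iff (g n : G) : DC P g n ↔ g ∈ DoubleCoset.doubleCoset n (P.B : Set G) P.B := by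
  simp [DC, DoubleCoset.mem_doubleCoset]

variable {P}

theorem DC.refl (g : G) : DC P g g := ⟨1, P.B.one_mem, 1, P.B.one_mem, by simp⟩

theorem DC.symm {g n : G} (h : DC P g n) : DC P n g := by
  obtain ⟨b, hb, b', hb', rfl⟩ := h
  exact ⟨b⁻¹, P.B.inv_mem hb, b'⁻¹, P.B.inv_mem hb', by group⟩

theorem DC.trans {g n m : G} (h : DC P g n) (h' : DC P n m) : DC P g m := by
  obtain ⟨b, hb, b', hb', rfl⟩ := h
  obtain ⟨c, hc, c', hc', rfl⟩ := h'
  exact ⟨b * c, P.B.mul_mem hb hc, c' * b', P.B.mul_mem hc' hb', by group⟩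

theorem DC.mul_left {g n b : G} (h : DC P g n) (hb : b ∈ P.B) : DC P (b * g) n :=
  DC.trans ⟨b, hb, 1, P.B.one_mem, by simp⟩ h

theorem DC.mul_right {g n b : G} (h : DC P g n) (hb : b ∈ P.B) : DC P (g * b) n :=
  DC.trans ⟨1, P.B.one_mem, b, hb, by simp⟩ h

theorem DC.of_inv_mul {g n : G} (h : n⁻¹ * g ∈ P.B) : DC P g n :=
  ⟨1, P.B.one_mem, _, h, by simp⟩

theorem DC.inv {g n : G} (h : DC P g n) : DC P g⁻¹ n⁻¹ := by
  obtain ⟨b, hb, b', hb', rfl⟩ := h
  exact ⟨b'⁻¹, P.B.inv_mem hb', b⁻¹, P.B.inv_mem hb, by group⟩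

theorem DC.mem {g n : G} (h : DC P g n) {M : Subgroup G} (hM : P.B ≤ M) (hn : n ∈ M) : g ∈ M := by
  obtain ⟨b, hb, b', hb', rfl⟩ := h
  exact M.mul_mem (M.mul_mem (hM hb) hn) (hM hb')

theorem conj_mem' {n t : G} (hn : n ∈ P.N) (ht : t ∈ P.B) (ht' : t ∈ P.N) : n⁻¹ * t * n ∈ P.B := by
  simpa using P.conj_mem n⁻¹ (P.N.inv_mem hn) t ⟨ht, ht'⟩

theorem S_mem {s : G} (hs : s ∈ P.S) : s ∈ P.N := P.subset hs

theorem not_mem_B {s : G} (hs : s ∈ P.S) : s ∉ P.B := by
  intro h
  apply P.conj_ne s hs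
  ext b
  constructor
  · rintro ⟨c, hc, rfl⟩
    exact P.B.mul_mem (P.B.mul_mem h hc) h
  · intro hb
    exact ⟨s⁻¹ * b * s⁻¹, P.B.mul_mem (P.B.mul_mem (P.B.inv_mem h) hb) (P.B.inv_mem h), by group⟩

theorem left_dc {s n b : G} (hs : s ∈ P.S) (hn : n ∈ P.N) (hb : b ∈ P.B) :
    DC P (s * b * n) (s * n) ∨ DC P (s * b * n) n := by
  simpa only [dc_iff, Set.mem_union] using P.mul_mem_union s hs n hn b hb

theorem right_dc {s n b : G} (hs : s ∈ P.S) (hn : n ∈ P.N) (hb : b ∈ P.B) :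
    DC P (n * b * s) (n * s) ∨ DC P (n * b * s) n := by
  have hb' : (s * s)⁻¹ * b⁻¹ ∈ P.B := P.B.mul_mem (P.B.inv_mem (P.sq_mem s hs)) (P.B.inv_mem hb)
  rcases left_dc hs (P.N.inv_mem hn) hb' with h | h
  · left
    have := h.inv
    have e : (s * ((s * s)⁻¹ * b⁻¹) * n⁻¹)⁻¹ = n * b * s := by group
    rw [e] at this
    refine this.trans (DC.of_inv_mul ?_)
    have e2 : (n * s)⁻¹ * (s * n⁻¹)⁻¹ = (s * s)⁻¹ := by group
    rw [e2]; exact P.B.inv_mem (P.sq_mem s hs)
  · right
    have := h.inv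
    have e : (s * ((s * s)⁻¹ * b⁻¹) * n⁻¹)⁻¹ = n * b * s := by group
    rwa [e, inv_inv] at this

theorem left_dc' {s g n : G} (hs : s ∈ P.S) (hn : n ∈ P.N) (h : DC P g n) :
    DC P (s * g) (s * n) ∨ DC P (s * g) n := by
  obtain ⟨b, hb, b', hb', rfl⟩ := h
  have e : s * (b * n * b') = s * b * n * b' := by group
  rw [e]
  exact (left_dc hs hn hb).imp (·.mul_right hb') (·.mul_right hb')

theorem right_dc' {s g n : G} (hs : s ∈ P.S) (hn : n ∈ P.N) (h : DC P g n) :
    DC P (g * s) (n * s) ∨ DC P (g * s) n := by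
  obtain ⟨b, hb, b', hb', rfl⟩ := h
  have e : b * n * b' * s = b * (n * b' * s) := by group
  rw [e]
  exact (right_dc hs hn hb').imp (·.mul_left hb) (·.mul_left hb)

theorem closure_le_N {J : Set G} (hJ : J ⊆ P.S) : Subgroup.closure J ≤ P.N :=
  (Subgroup.closure_le _).2 (hJ.trans P.subset)

/-- The parabolic subgroup `P_J` is the union of the double cosets `B n B`, `n ∈ ⟨J⟩`. -/
theorem mem_parabolic_iff {J : Set G} (hJ : J ⊆ P.S) (g : G) :
    g ∈ P.parabolic J ↔ ∃ n ∈ Subgroup.closure J, DC P g n := by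
  constructor
  · intro hg
    have hg' : g ∈ Subgroup.closure ((P.B : Set G) ∪ J) := by
      rw [Subgroup.closure_union, Subgroup.closure_eq]; exact hg
    clear hg
    have hs : ∀ s ∈ J, ∀ g, (∃ n ∈ Subgroup.closure J, DC P g n) →
        ∃ n ∈ Subgroup.closure J, DC P (s * g) n := by
      rintro s hs g ⟨n, hn, h⟩
      rcases left_dc' (hJ hs) (closure_le_N hJ hn) h with h | h
      · exact ⟨_, (Subgroup.closure J).mul_mem (Subgroup.subset_closure hs) hn, h⟩
      · exact ⟨_, hn, h⟩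
    induction hg' using Subgroup.closure_induction_left with
    | one => exact ⟨1, (Subgroup.closure J).one_mem, DC.refl _⟩
    | mul_left x hx y _ ih =>
      rcases hx with hx | hx
      · obtain ⟨n, hn, h⟩ := ih
        exact ⟨n, hn, h.mul_left hx⟩
      · exact hs x hx y ih
    | inv_mul_cancel x hx y _ ih =>
      rcases hx with hx | hx
      · obtain ⟨n, hn, h⟩ := ih
        exact ⟨n, hn, h.mul_left (P.B.inv_mem hx)⟩
      · obtain ⟨n, hn, h⟩ := hs x hx y ih
        refine ⟨n, hn, ?_⟩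
        have e : x⁻¹ * y = (x * x)⁻¹ * (x * y) := by group
        rw [e]
        exact h.mul_left (P.B.inv_mem (P.sq_mem x (hJ hx)))
  · rintro ⟨n, hn, h⟩
    exact h.mem le_sup_left (Subgroup.mem_sup_right hn)

variable (P) in
theorem parabolic_S : P.parabolic P.S = ⊤ := by
  rw [eq_top_iff, ← P.sup_eq_top, ← P.closure_sup, BNPair.parabolic]
  exact sup_le le_sup_left (sup_le le_sup_right (inf_le_left.trans le_sup_left))

variable (P) in
/-- Bruhat decomposition, existence. -/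
theorem exists_dc (g : G) : ∃ n ∈ P.N, DC P g n := by
  obtain ⟨n, hn, h⟩ := (mem_parabolic_iff (P := P) subset_rfl g).1 (by rw [parabolic_S]; trivial)
  exact ⟨n, closure_le_N subset_rfl hn, h⟩

theorem prod_mem_N {l : List G} (hl : ∀ s ∈ l, s ∈ P.S) : l.prod ∈ P.N :=
  P.N.list_prod_mem fun s hs => S_mem (hl s hs)

theorem exists_word {n : G} (hn : n ∈ P.N) :
    ∃ l : List G, (∀ s ∈ l, s ∈ P.S) ∧ l.prod⁻¹ * n ∈ P.B := by
  have hg' : n ∈ Subgroup.closure (P.S ∪ (P.B ⊓ P.N : Subgroup G)) := by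
    rw [Subgroup.closure_union, Subgroup.closure_eq, P.closure_sup]; exact hn
  clear hn
  have hT : ∀ t ∈ P.B ⊓ P.N, ∀ g, (∃ l : List G, (∀ s ∈ l, s ∈ P.S) ∧ l.prod⁻¹ * g ∈ P.B) →
      ∃ l : List G, (∀ s ∈ l, s ∈ P.S) ∧ l.prod⁻¹ * (t * g) ∈ P.B := by
    rintro t ht g ⟨l, hl, h⟩
    refine ⟨l, hl, ?_⟩
    have e : l.prod⁻¹ * (t * g) = (l.prod⁻¹ * t * l.prod) * (l.prod⁻¹ * g) := by group
    rw [e]
    exact P.B.mul_mem (conj_mem' (prod_mem_N hl) ht.1 ht.2) h
  have hS : ∀ s ∈ P.S, ∀ g, (∃ l : List G, (∀ s ∈ l, s ∈ P.S) ∧ l.prod⁻¹ * g ∈ P.B) →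
      ∃ l : List G, (∀ s ∈ l, s ∈ P.S) ∧ l.prod⁻¹ * (s * g) ∈ P.B := by
    rintro s hs g ⟨l, hl, h⟩
    refine ⟨s :: l, by simpa [hs] using hl, ?_⟩
    simpa [mul_assoc] using h
  induction hg' using Subgroup.closure_induction_left with
  | one => exact ⟨[], by simp, by simp⟩
  | mul_left x hx y _ ih =>
    rcases hx with hx | hx
    · exact hS x hx y ih
    · exact hT x hx y ih
  | inv_mul_cancel x hx y _ ih =>
    rcases hx with hx | hx
    · have e : x⁻¹ * y = (x * x)⁻¹ * (x * y) := by group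
      rw [e]
      exact hT _ (Subgroup.inv_mem _ ⟨P.sq_mem x hx, P.N.mul_mem (S_mem hx) (S_mem hx)⟩) _
        (hS x hx y ih)
    · exact hT _ (Subgroup.inv_mem _ hx) y ih

variable (P) in
/-- The length of (the image in the Weyl group of) an element of `N`. -/
noncomputable def len (n : G) : ℕ :=
  sInf {k | ∃ l : List G, (∀ s ∈ l, s ∈ P.S) ∧ l.prod⁻¹ * n ∈ P.B ∧ l.length = k}

theorem len_le {n : G} {l : List G} (hl : ∀ s ∈ l, s ∈ P.S) (h : l.prod⁻¹ * n ∈ P.B) :
    len P n ≤ l.length := Nat.sInf_le ⟨l, hl, h, rfl⟩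

theorem exists_red {n : G} (hn : n ∈ P.N) :
    ∃ l : List G, (∀ s ∈ l, s ∈ P.S) ∧ l.prod⁻¹ * n ∈ P.B ∧ l.length = len P n := by
  obtain ⟨l, hl, h⟩ := exists_word hn
  exact Nat.sInf_mem (s := {k | ∃ l : List G, (∀ s ∈ l, s ∈ P.S) ∧ l.prod⁻¹ * n ∈ P.B ∧
    l.length = k}) ⟨_, l, hl, h, rfl⟩

theorem len_congr {n n' : G} (h : n⁻¹ * n' ∈ P.B) : len P n = len P n' := by
  unfold len
  congr 1
  ext k
  constructor
  · rintro ⟨l, hl, h1, h2⟩
    refine ⟨l, hl, ?_, h2⟩
    simpa [mul_assoc] using P.B.mul_mem h1 h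
  · rintro ⟨l, hl, h1, h2⟩
    refine ⟨l, hl, ?_, h2⟩
    simpa [mul_assoc] using P.B.mul_mem h1 (P.B.inv_mem h)

theorem len_eq_zero {n : G} (hn : n ∈ P.N) : len P n = 0 ↔ n ∈ P.B := by
  constructor
  · intro h
    obtain ⟨l, -, h1, h2⟩ := exists_red hn
    rw [h, List.length_eq_zero_iff] at h2
    simpa [h2] using h1
  · intro h
    have := len_le (P := P) (n := n) (l := []) (by simp) (by simpa using h)
    simpa using this

theorem len_left_le {s n : G} (hs : s ∈ P.S) (hn : n ∈ P.N) : len P (s * n) ≤ len P n + 1 := by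
  obtain ⟨l, hl, h1, h2⟩ := exists_red hn
  have := len_le (P := P) (n := s * n) (l := s :: l) (by simpa [hs] using hl)
    (by simpa [mul_assoc] using h1)
  simpa [h2] using this

theorem len_right_le {s n : G} (hs : s ∈ P.S) (hn : n ∈ P.N) : len P (n * s) ≤ len P n + 1 := by
  obtain ⟨l, hl, h1, h2⟩ := exists_red hn
  have := len_le (P := P) (n := n * s) (l := l ++ [s]) (by
    intro x hx
    rcases List.mem_append.1 hx with hx | hx
    · exact hl x hx
    · rw [List.mem_singleton.1 hx]; exact hs) (by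
    have := conj_mem' (S_mem hs) h1 (P.N.mul_mem (P.N.inv_mem (prod_mem_N hl)) hn)
    simpa [mul_assoc] using this)
  simpa [h2] using this

theorem sq_conj {s n : G} (hs : s ∈ P.S) (hn : n ∈ P.N) : n⁻¹ * (s * (s * n)) ∈ P.B := by
  have := conj_mem' hn (P.sq_mem s hs) (P.N.mul_mem (S_mem hs) (S_mem hs))
  simpa [mul_assoc] using this

theorem len_ss {s n : G} (hs : s ∈ P.S) (hn : n ∈ P.N) : len P (s * (s * n)) = len P n :=
  (len_congr (sq_conj hs hn)).symm

theorem len_ss_right {s n : G} (hs : s ∈ P.S) : len P (n * s * s) = len P n :=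
  (len_congr (by simpa [mul_assoc] using P.sq_mem s hs)).symm

theorem exists_left_desc {n : G} (hn : n ∈ P.N) (h : len P n ≠ 0) :
    ∃ s ∈ P.S, len P (s * n) + 1 = len P n := by
  obtain ⟨l, hl, h1, h2⟩ := exists_red hn
  cases l with
  | nil => exact absurd h2.symm h
  | cons s l =>
    have hs := hl s (by simp)
    refine ⟨s, hs, le_antisymm ?_ ?_⟩
    · have hl' : ∀ x ∈ l, x ∈ P.S := fun x hx => hl x (by simp [hx])
      have := len_le (P := P) (n := s * n) (l := l) hl' (by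
        have h3 := P.B.mul_mem (conj_mem' (prod_mem_N hl') (P.sq_mem s hs)
          (P.N.mul_mem (S_mem hs) (S_mem hs))) h1
        simpa [mul_assoc] using h3)
      simp only [List.length_cons] at h2
      omega
    · have := len_left_le hs (P.N.mul_mem (S_mem hs) hn)
      rwa [len_ss hs hn] at this

theorem exists_right_desc {n : G} (hn : n ∈ P.N) (h : len P n ≠ 0) :
    ∃ s ∈ P.S, len P (n * s) + 1 = len P n := by
  obtain ⟨l, hl, h1, h2⟩ := exists_red hn
  rcases List.eq_nil_or_concat l with rfl | ⟨l, s, rfl⟩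
  · exact absurd h2.symm h
  · have hs := hl s (by simp)
    refine ⟨s, hs, le_antisymm ?_ ?_⟩
    · have hl' : ∀ x ∈ l, x ∈ P.S := fun x hx => hl x (by simp [hx])
      have := len_le (P := P) (n := n * s) (l := l) hl' (by
        have h3 := P.B.mul_mem (P.sq_mem s hs) (conj_mem' (S_mem hs) h1
          (P.N.mul_mem (P.N.inv_mem (prod_mem_N hl)) hn))
        simpa [mul_assoc] using h3)
      simp only [List.length_concat] at h2
      omega
    · have := len_right_le hs (P.N.mul_mem hn (S_mem hs))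
      rwa [len_ss_right hs] at this

theorem dc_unique_aux : ∀ (k : ℕ) {n n' : G}, n ∈ P.N → n' ∈ P.N → len P n = k → k ≤ len P n' →
    DC P n n' → n⁻¹ * n' ∈ P.B := by
  intro k
  induction k with
  | zero =>
    intro n n' hn _ h0 _ h
    have h1 := (len_eq_zero hn).1 h0
    exact P.B.mul_mem (P.B.inv_mem h1) (h.symm.mem le_rfl h1)
  | succ k ih =>
    intro n n' hn hn' h0 h1 h
    obtain ⟨s, hs, h2⟩ := exists_left_desc hn (by omega)
    have hsn := P.N.mul_mem (S_mem hs) hn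
    have hsn' := P.N.mul_mem (S_mem hs) hn'
    rcases left_dc' hs hn' h with h3 | h3
    · have h4 := len_left_le hs hsn'
      rw [len_ss hs hn'] at h4
      have := ih hsn hsn' (by omega) (by omega) h3
      simpa [mul_assoc] using this
    · have := len_congr (ih hsn hn' (by omega) (by omega) h3)
      omega

/-- Bruhat decomposition, uniqueness. -/
theorem dc_unique {n n' : G} (hn : n ∈ P.N) (hn' : n' ∈ P.N) (h : DC P n n') : n⁻¹ * n' ∈ P.B := by
  rcases le_total (len P n) (len P n') with h1 | h1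
  · exact dc_unique_aux _ hn hn' rfl h1 h
  · simpa using P.B.inv_mem (dc_unique_aux _ hn' hn rfl h1 h.symm)

theorem not_dc_left {s n : G} (hs : s ∈ P.S) (hn : n ∈ P.N) : ¬ DC P n (s * n) := fun h => by
  have h1 := dc_unique hn (P.N.mul_mem (S_mem hs) hn) h
  have := P.conj_mem n hn _ ⟨h1, P.N.mul_mem (P.N.inv_mem hn) (P.N.mul_mem (S_mem hs) hn)⟩
  exact not_mem_B hs (by simpa [mul_assoc] using this)

theorem dc_up_aux : ∀ (k : ℕ) {s n b : G}, s ∈ P.S → n ∈ P.N → b ∈ P.B → len P n = k →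
    len P n ≤ len P (s * n) → DC P (s * b * n) (s * n) := by
  intro k
  induction k with
  | zero =>
    intro s n b _ hn hb h0 _
    have h1 := (len_eq_zero hn).1 h0
    refine DC.of_inv_mul ?_
    simpa [mul_assoc] using P.B.mul_mem (P.B.inv_mem h1) (P.B.mul_mem hb h1)
  | succ k ih =>
    intro s n b hs hn hb h0 h1
    rcases left_dc hs hn hb with h | h
    · exact h
    exfalso
    obtain ⟨r, hr, h2⟩ := exists_right_desc hn (by omega)
    have hnr := P.N.mul_mem hn (S_mem hr)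
    have hsnr := P.N.mul_mem (S_mem hs) hnr
    have h3 : len P (s * n) ≤ len P (s * (n * r)) + 1 := by
      have := len_right_le hr hsnr
      rwa [← mul_assoc s, len_ss_right hr, mul_assoc] at this
    have h4 := ih hs hnr hb (by omega) (by omega)
    rcases right_dc' hr hn h with h5 | h5
    · rw [mul_assoc (s * b)] at h5
      exact not_dc_left hs hnr (h5.symm.trans h4)
    · rw [mul_assoc (s * b)] at h5
      have h6 := dc_unique hsnr hn (h4.symm.trans h5)
      have h7 := conj_mem' (S_mem hr) h6 (P.N.mul_mem (P.N.inv_mem hsnr) hn)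
      have h8 : len P (s * n * r * r) = len P (n * r) := len_congr (by simpa [mul_assoc] using h7)
      rw [len_ss_right hr] at h8
      omega

theorem dc_up {s n g : G} (hs : s ∈ P.S) (hn : n ∈ P.N) (h : len P n ≤ len P (s * n))
    (hg : DC P g n) : DC P (s * g) (s * n) := by
  obtain ⟨b, hb, b', hb', rfl⟩ := hg
  have e : s * (b * n * b') = s * b * n * b' := by group
  rw [e]
  exact (dc_up_aux _ hs hn hb rfl h).mul_right hb'

theorem exists_sbs {s : G} (hs : s ∈ P.S) : ∃ b ∈ P.B, DC P (s * b * s) s := by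
  by_contra hc
  push Not at hc
  have h1 : ∀ b ∈ P.B, s * b * s ∈ P.B := fun b hb => by
    rcases left_dc hs (S_mem hs) hb with h | h
    · exact h.mem le_rfl (P.sq_mem s hs)
    · exact absurd h (hc b hb)
  apply P.conj_ne s hs
  ext b
  constructor
  · rintro ⟨c, hc, rfl⟩
    exact h1 c hc
  · intro hb
    have h2 := P.B.inv_mem (P.sq_mem s hs)
    refine ⟨(s * s)⁻¹ * (s * b * s) * (s * s)⁻¹, P.B.mul_mem (P.B.mul_mem h2 (h1 b hb)) h2, ?_⟩
    group

theorem dc_down {s n : G} (hs : s ∈ P.S) (hn : n ∈ P.N) (h : len P (s * n) ≤ len P n) :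
    ∃ b ∈ P.B, DC P (s * b * n) n := by
  obtain ⟨b, hb, b1, hb1, b2, hb2, e⟩ := exists_sbs hs
  have hsn := P.N.mul_mem (S_mem hs) hn
  refine ⟨b * (s * s), P.B.mul_mem hb (P.sq_mem s hs), ?_⟩
  have e2 : s * (b * (s * s)) * n = b1 * (s * (b2 * (s * n))) := by
    calc s * (b * (s * s)) * n = (s * b * s) * (s * n) := by group
      _ = _ := by rw [e]; group
  rw [e2]
  have h1 := dc_up hs hsn (by rwa [len_ss hs hn]) ((DC.refl (s * n)).mul_left hb2)
  exact (h1.trans (DC.of_inv_mul (sq_conj hs hn))).mul_left hb1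

/-- The folding condition. -/
theorem fold {s r m : G} (hs : s ∈ P.S) (hr : r ∈ P.S) (hm : m ∈ P.N)
    (h1 : len P m ≤ len P (s * m)) (h2 : len P (s * (m * r)) ≤ len P (m * r)) :
    (m * r)⁻¹ * (s * m) ∈ P.B := by
  have hmr := P.N.mul_mem hm (S_mem hr)
  have hsm := P.N.mul_mem (S_mem hs) hm
  obtain ⟨b, hb, h3⟩ := dc_down hs hmr h2
  have h4 := dc_up_aux _ hs hm hb rfl h1
  rcases right_dc' hr hsm h4 with h5 | h5
  · rw [mul_assoc (s * b), mul_assoc s m r] at h5
    exact absurd (h3.symm.trans h5) (not_dc_left hs hmr)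
  · rw [mul_assoc (s * b)] at h5
    exact dc_unique hmr hsm (h3.symm.trans h5)

theorem mem_of_desc {s n : G} (hs : s ∈ P.S) (hn : n ∈ P.N) (h : len P (s * n) ≤ len P n)
    {M : Subgroup G} (hM : P.B ≤ M) (hc : ∀ b ∈ P.B, n * b * n⁻¹ ∈ M) : s ∈ M := by
  obtain ⟨b, hb, b1, hb1, b2, hb2, e⟩ := dc_down hs hn h
  have : s = b1 * (n * b2 * n⁻¹) * b⁻¹ := by
    calc s = (s * b * n) * n⁻¹ * b⁻¹ := by group
      _ = _ := by rw [e]; group
  rw [this]
  exact M.mul_mem (M.mul_mem (hM hb1) (hc b2 hb2)) (M.inv_mem (hM hb))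

theorem mem_parabolic_of_mem_aux {M : Subgroup G} (hM : P.B ≤ M) : ∀ (k : ℕ) {n : G}, n ∈ P.N →
    len P n = k → n ∈ M → n ∈ P.parabolic (P.S ∩ M) := by
  intro k
  induction k with
  | zero => intro n hn h0 _; exact Subgroup.mem_sup_left ((len_eq_zero hn).1 h0)
  | succ k ih =>
    intro n hn h0 hnM
    obtain ⟨s, hs, h2⟩ := exists_left_desc hn (by omega)
    have hsM := mem_of_desc hs hn (by omega) hM fun b hb =>
      M.mul_mem (M.mul_mem hnM (hM hb)) (M.inv_mem hnM)
    have h3 := ih (P.N.mul_mem (S_mem hs) hn) (by omega) (M.mul_mem hsM hnM)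
    have h4 : s ∈ P.parabolic (P.S ∩ M) := Subgroup.mem_sup_right (Subgroup.subset_closure ⟨hs, hsM⟩)
    simpa using Subgroup.mul_mem _ (Subgroup.inv_mem _ h4) h3

/-- A subgroup containing `B` is a standard parabolic subgroup. -/
theorem eq_parabolic {M : Subgroup G} (hM : P.B ≤ M) : M = P.parabolic (P.S ∩ M) := by
  refine le_antisymm (fun g hg => ?_) (sup_le hM ((Subgroup.closure_le _).2 Set.inter_subset_right))
  obtain ⟨n, hn, h⟩ := exists_dc P g
  exact h.mem le_sup_left (mem_parabolic_of_mem_aux hM _ hn rfl (h.symm.mem hM hg))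

theorem mem_of_conj_aux {M : Subgroup G} (hM : P.B ≤ M) : ∀ (k : ℕ) {n : G}, n ∈ P.N →
    len P n = k → (∀ b ∈ P.B, n * b * n⁻¹ ∈ M) → n ∈ M := by
  intro k
  induction k with
  | zero => intro n hn h0 _; exact hM ((len_eq_zero hn).1 h0)
  | succ k ih =>
    intro n hn h0 hc
    obtain ⟨s, hs, h2⟩ := exists_left_desc hn (by omega)
    have hsM := mem_of_desc hs hn (by omega) hM hc
    have h3 := ih (P.N.mul_mem (S_mem hs) hn) (by omega) fun b hb => by
      have := M.mul_mem (M.mul_mem hsM (hc b hb)) (M.inv_mem hsM)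
      simpa [mul_assoc] using this
    simpa using Subgroup.mul_mem _ (Subgroup.inv_mem _ hsM) h3

/-- If `B ≤ M` and `g B g⁻¹ ≤ M` then `g ∈ M`. -/
theorem mem_of_conj {M : Subgroup G} (hM : P.B ≤ M) {g : G} (hc : ∀ b ∈ P.B, g * b * g⁻¹ ∈ M) :
    g ∈ M := by
  obtain ⟨n, hn, h⟩ := exists_dc P g
  refine h.mem hM (mem_of_conj_aux hM _ hn rfl fun b hb => ?_)
  obtain ⟨b1, hb1, b2, hb2, rfl⟩ := h
  have := M.mul_mem (M.mul_mem (M.inv_mem (hM hb1))
    (hc _ (P.B.mul_mem (P.B.mul_mem (P.B.inv_mem hb2) hb) hb2))) (hM hb1)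
  simpa [mul_assoc] using this

/-- A subgroup containing `B` is self-normalising. -/
theorem normalizer_eq {M : Subgroup G} (hM : P.B ≤ M) : Subgroup.normalizer (M : Set G) = M := by
  refine le_antisymm (fun g hg => mem_of_conj hM fun b hb => ?_) Subgroup.le_normalizer
  exact ((Subgroup.mem_normalizer_iff.1 hg) b).1 (hM hb)

theorem len_S {s : G} (hs : s ∈ P.S) : len P s = 1 := by
  have h1 := len_le (P := P) (n := s) (l := [s]) (by simpa using hs) (by simp)
  have h2 : len P s ≠ 0 := fun h => not_mem_B hs ((len_eq_zero (S_mem hs)).1 h)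
  simp only [List.length_singleton] at h1
  omega

/-- A normal subgroup either lies in `B` or supplements it, when the pair is irreducible. -/
theorem normal_le_or_sup (hirr : P.Irreducible) (K : Subgroup G) [hK : K.Normal] :
    K ≤ P.B ∨ K ⊔ P.B = ⊤ := by
  set M := K ⊔ P.B with hMdef
  have hM : P.B ≤ M := le_sup_right
  by_cases h1 : (P.S ∩ M).Nonempty
  · by_cases h2 : (P.S \ (P.S ∩ M)).Nonempty
    · exfalso
      obtain ⟨r, ⟨hr, hrM⟩, s, ⟨hs, hsM⟩, hne⟩ := hirr _ Set.inter_subset_left h1 h2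
      have hsM' : s ∉ M := fun h => hsM ⟨hs, h⟩
      have hrM' : r ∈ (K : Set G) * (P.B : Set G) := by
        rw [← Subgroup.normal_mul]; exact hrM
      obtain ⟨k, hk, b, hb, e⟩ := hrM'
      simp only at e
      have hk1 : DC P k r := DC.of_inv_mul (by rw [← e]; simpa using hb)
      have hsr := P.N.mul_mem (S_mem hs) (S_mem hr)
      have hl : len P r ≤ len P (s * r) := by
        rw [len_S hr, Nat.one_le_iff_ne_zero]
        intro h0
        have := (len_eq_zero hsr).1 h0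
        exact hsM' (by simpa using M.mul_mem (hM this) (M.inv_mem hrM))
      have hsks : s * k * s ∈ M := by
        have := M.mul_mem (Subgroup.mem_sup_left (hK.conj_mem k hk s)) (hM (P.sq_mem s hs))
        simpa [mul_assoc] using this
      rcases right_dc' hs hsr (dc_up hs (S_mem hr) hl hk1) with h3 | h3
      · have h4 : s * r * s ∈ M := h3.symm.mem hM hsks
        have hrs := P.N.mul_mem (S_mem hr) (S_mem hs)
        rcases le_or_gt (len P (s * (r * s))) (len P (r * s)) with h5 | h5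
        · have h6 := fold hs hs (S_mem hr) hl h5
          apply hne
          have h7 := P.conj_mem (r * s) hrs _ ⟨h6, P.N.mul_mem (P.N.inv_mem hrs) hsr⟩
          have := P.B.inv_mem h7
          simpa [mul_assoc] using this
        · apply hsM'
          rw [mul_assoc] at h4
          refine mem_of_desc hs (P.N.mul_mem (S_mem hs) hrs) (by rw [len_ss hs hrs]; omega) hM
            fun b hb => M.mul_mem (M.mul_mem h4 (hM hb)) (M.inv_mem h4)
      · have h4 : s * r ∈ M := h3.symm.mem hM hsks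
        exact hsM' (by simpa using M.mul_mem h4 (M.inv_mem hrM))
    · right
      rw [Set.not_nonempty_iff_eq_empty, Set.sdiff_eq_empty] at h2
      rw [eq_top_iff, ← parabolic_S P]
      exact sup_le hM ((Subgroup.closure_le _).2 fun s hs => (h2 hs).2)
  · left
    rw [Set.not_nonempty_iff_eq_empty] at h1
    have := eq_parabolic hM
    rw [h1, BNPair.parabolic, Subgroup.closure_empty, sup_bot_eq] at this
    exact le_sup_left.trans this.le

theorem normal_eq_bot_or_sup (hirr : P.Irreducible) (hcore : P.B.normalCore = ⊥) (K : Subgroup G)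
    [hK : K.Normal] : K = ⊥ ∨ K ⊔ P.B = ⊤ := by
  refine (normal_le_or_sup hirr K).imp_left fun h => ?_
  rw [eq_bot_iff, ← hcore]
  exact Subgroup.normal_le_normalCore.2 h

theorem surj_of_sup {B K : Subgroup G} [K.Normal] (h : K ⊔ B = ⊤) :
    Function.Surjective ((QuotientGroup.mk' K).comp B.subtype) := by
  intro x
  obtain ⟨g, rfl⟩ := QuotientGroup.mk'_surjective K x
  have hg : g ∈ (B : Set G) * (K : Set G) := by
    rw [← Subgroup.mul_normal, sup_comm, h]; trivial
  obtain ⟨b, hb, k, hk, rfl⟩ := hg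
  refine ⟨⟨b, hb⟩, ?_⟩
  simp only [MonoidHom.comp_apply, Subgroup.subtype_apply, QuotientGroup.mk'_apply,
    QuotientGroup.eq]
  simpa using hk

/-- The simplicity criterion of Tits. -/
theorem isSimpleGroup [Nontrivial G] (hirr : P.Irreducible) (hsolv : Group.IsSolvable P.B)
    (hperf : commutator G = ⊤) (hcore : P.B.normalCore = ⊥) : IsSimpleGroup G := by
  refine ⟨fun K hK => (normal_eq_bot_or_sup hirr hcore K).imp_right fun h => ?_⟩
  haveI : Group.IsSolvable (G ⧸ K) := Group.isSolvable_of_surjective (surj_of_sup h)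
  by_contra hne
  haveI : Nontrivial (G ⧸ K) := QuotientGroup.nontrivial_iff.2 hne
  have h1 := Group.IsSolvable.commutator_lt_top_of_nontrivial (G ⧸ K)
  have h2 : commutator (G ⧸ K) = ⊤ := by
    rw [commutator_def, ← Subgroup.map_top_of_surjective _ (QuotientGroup.mk'_surjective K),
      ← Subgroup.map_commutator, ← commutator_def, hperf]
  exact h1.ne h2

end CA.BN
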