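import Cfsg.Agent.Lib.BN.Twist

/-!
Abstract Chevalley systems: a group generated by elements `x r t` satisfying additivity, the weak
commutator relation and the conjugation rules for `n_i` and `h_i(c)`. Such a system carries root group
data.
-/

set_option autoImplicit false
set_option linter.unusedSectionVars false
set_option maxHeartbeats 400000

namespace CA.BN

open CA.Weyl CoxeterSystem

variable {B R W : Type*} [Fintype B] [DecidableEq B] [Group W] [Fintype R]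

section Defs

variable {F G : Type*} [Field F] [Group G]

/-- The subgroup generated by the `x r t`, `t ∈ F`. -/
def rtX (x : R → F → G) (r : R) : Subgroup G := Subgroup.closure (Set.range (x r))

/-- `n_r(t) = x_r(t) x_{-r}(-t⁻¹) x_r(t)`. -/
def nn (Φ : RS B R W) (x : R → F → G) (r : R) (t : F) : G := x r t * x (Φ.neg r) (-t⁻¹) * x r t

/-- `h_r(t) = n_r(t) n_r(-1)`. -/
def hh (Φ : RS B R W) (x : R → F → G) (r : R) (t : F) : G := nn Φ x r t * nn Φ x r (-1)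

end Defs

/-- An abstract Chevalley system. -/
structure ChevSys (Φ : RS B R W) (F G : Type*) [Field F] [Group G] where
  x : R → F → G
  add : ∀ r t u, x r (t + u) = x r t * x r u
  comm : ∀ r s, s ≠ r → s ≠ Φ.neg r → ∀ t u,
    x r t * x s u * (x r t)⁻¹ * (x s u)⁻¹ ∈ XS (rtX x) (Φ.Cone r s)
  nconj : ∀ i s, ∃ η : F, η * η = 1 ∧
    (∀ t, nn Φ x (Φ.simple i) 1 * x s t * (nn Φ x (Φ.simple i) 1)⁻¹ =
      x (Φ.act (Φ.cs.simple i) s) (η * t)) ∧
    ∀ t, nn Φ x (Φ.simple i) 1 * x (Φ.neg s) t * (nn Φ x (Φ.simple i) 1)⁻¹ =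
      x (Φ.act (Φ.cs.simple i) (Φ.neg s)) (η * t)
  hconj : ∀ i c, c ≠ 0 → ∀ s, ∃ k : F, ∀ t,
    hh Φ x (Φ.simple i) c * x s t * (hh Φ x (Φ.simple i) c)⁻¹ = x s (k * t)
  gen : XS (rtX x) (fun _ => True) = ⊤
  nondeg : ∀ i r t, ¬ Φ.Pos r → x (Φ.simple i) 1 ≠ x r t

namespace ChevSys

variable {Φ : RS B R W} {F G : Type*} [Field F] [Group G] (C : ChevSys Φ F G)

/-- `n_r(t)`. -/
abbrev n (r : R) (t : F) : G := nn Φ C.x r t
/-- `h_r(t)`. -/
abbrev h (r : R) (t : F) : G := hh Φ C.x r t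
/-- The root subgroup. -/
abbrev X (r : R) : Subgroup G := rtX C.x r

@[simp] theorem x_zero (r : R) : C.x r 0 = 1 := by
  have := C.add r 0 0
  rw [add_zero] at this
  exact left_eq_mul.1 this

theorem x_neg (r : R) (t : F) : C.x r (-t) = (C.x r t)⁻¹ := by
  rw [eq_inv_iff_mul_eq_one, ← C.add, neg_add_cancel, x_zero]

theorem mem_X {r : R} {g : G} : g ∈ C.X r ↔ ∃ t, C.x r t = g := by
  constructor
  · intro hg
    induction hg using Subgroup.closure_induction with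
    | mem _ h => exact h
    | one => exact ⟨0, C.x_zero r⟩
    | mul a b _ _ ha hb =>
      obtain ⟨t, rfl⟩ := ha
      obtain ⟨u, rfl⟩ := hb
      exact ⟨t + u, C.add r t u⟩
    | inv a _ ha =>
      obtain ⟨t, rfl⟩ := ha
      exact ⟨-t, C.x_neg r t⟩
  · exact fun h => Subgroup.subset_closure h

theorem x_mem (r : R) (t : F) : C.x r t ∈ C.X r := C.mem_X.2 ⟨t, rfl⟩

theorem x_comm (r : R) (t u : F) : C.x r t * C.x r u = C.x r u * C.x r t := by
  rw [← C.add, ← C.add, add_comm]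

theorem n_neg (r : R) (t : F) : C.n r (-t) = (C.n r t)⁻¹ := by
  simp only [nn, inv_neg, neg_neg, C.x_neg, mul_inv_rev, inv_inv, mul_assoc]

theorem h_eq (r : R) (t : F) : C.h r t = C.n r t * (C.n r 1)⁻¹ := by
  rw [← C.n_neg]; rfl

theorem n_eq (r : R) (t : F) : C.n r t = C.h r t * C.n r 1 := by
  rw [h_eq, inv_mul_cancel_right]

@[simp] theorem h_one (r : R) : C.h r 1 = 1 := by rw [h_eq, mul_inv_cancel]

/-- The diagonal subgroup. -/
def H : Subgroup G := Subgroup.closure {g | ∃ r t, t ≠ 0 ∧ g = C.h r t}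

/-- The monomial subgroup. -/
def N : Subgroup G := C.H ⊔ Subgroup.closure {g | ∃ r, g = C.n r 1}

theorem h_mem (r : R) {t : F} (ht : t ≠ 0) : C.h r t ∈ C.H := Subgroup.subset_closure ⟨r, t, ht, rfl⟩

theorem n_mem (r : R) {t : F} (ht : t ≠ 0) : C.n r t ∈ C.N := by
  rw [n_eq]
  exact C.N.mul_mem (Subgroup.mem_sup_left (C.h_mem r ht))
    (Subgroup.mem_sup_right (Subgroup.subset_closure ⟨r, rfl⟩))

theorem H_le_N : C.H ≤ C.N := le_sup_left

/-- `g` conjugates root elements as `w` does, up to signs. -/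
def Cj (g : G) (w : W) : Prop := ∀ s, ∃ η : F, η * η = 1 ∧
  (∀ t, g * C.x s t * g⁻¹ = C.x (Φ.act w s) (η * t)) ∧
  ∀ t, g * C.x (Φ.neg s) t * g⁻¹ = C.x (Φ.act w (Φ.neg s)) (η * t)

theorem Cj.one : C.Cj 1 1 := fun s => ⟨1, by simp, by simp, by simp⟩

variable {C}

theorem Cj.mul {g g' : G} {w w' : W} (h : C.Cj g w) (h' : C.Cj g' w') : C.Cj (g * g') (w * w') := by
  intro s
  obtain ⟨η', a1, a2, a3⟩ := h' s
  obtain ⟨η, b1, b2, b3⟩ := h (Φ.act w' s)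
  refine ⟨η * η', by linear_combination η' * η' * b1 + a1, fun t => ?_, fun t => ?_⟩
  · rw [Φ.act_mul, mul_assoc η, ← b2, ← a2]; group
  · rw [Φ.act_mul, mul_assoc η, Φ.act_neg, ← b3, ← Φ.act_neg, ← a3]; group

theorem Cj.inv {g : G} {w : W} (h : C.Cj g w) : C.Cj g⁻¹ w⁻¹ := by
  intro s
  obtain ⟨η, b1, b2, b3⟩ := h (Φ.act w⁻¹ s)
  refine ⟨η, b1, fun t => ?_, fun t => ?_⟩
  · have := b2 (η * t)
    rw [Φ.act_act_inv, ← mul_assoc η, b1, one_mul] at this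
    rw [← this]; group
  · have := b3 (η * t)
    rw [← Φ.act_neg, Φ.act_act_inv, ← mul_assoc η, b1, one_mul] at this
    rw [← this]; group

theorem ne_zero_of_sq {η : F} (h : η * η = 1) : η ≠ 0 := by
  rintro rfl; simp at h

theorem Cj.conj_n {g : G} {w : W} (h : C.Cj g w) (s : R) :
    ∃ η : F, η * η = 1 ∧ (∀ t, g * C.x s t * g⁻¹ = C.x (Φ.act w s) (η * t)) ∧
      ∀ t, g * C.n s t * g⁻¹ = C.n (Φ.act w s) (η * t) := by
  obtain ⟨η, b1, b2, b3⟩ := h s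
  refine ⟨η, b1, b2, fun t => ?_⟩
  have e : -(η * t)⁻¹ = η * -t⁻¹ := by
    rw [mul_inv, inv_eq_of_mul_eq_one_right b1]; ring
  simp only [nn]
  rw [← b2, e, ← Φ.act_neg, ← b3]
  group

theorem Cj.conj_h {g : G} {w : W} (h : C.Cj g w) (s : R) :
    ∃ η : F, η * η = 1 ∧ ∀ t, g * C.h s t * g⁻¹ = C.h (Φ.act w s) (η * t) * (C.h (Φ.act w s) η)⁻¹ := by
  obtain ⟨η, b1, -, b3⟩ := h.conj_n s
  refine ⟨η, b1, fun t => ?_⟩
  have := b3 1
  rw [mul_one] at this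
  rw [h_eq, h_eq, h_eq, ← b3, ← this]
  group

theorem Cj.conj_H {g : G} {w : W} (h : C.Cj g w) {k : G} (hk : k ∈ C.H) : g * k * g⁻¹ ∈ C.H := by
  refine (Subgroup.closure_le (C.H.comap (MulAut.conj g).toMonoidHom)).2 ?_ hk
  rintro _ ⟨r, t, ht, rfl⟩
  obtain ⟨η, b1, b2⟩ := h.conj_h r
  change g * C.h r t * g⁻¹ ∈ C.H
  rw [b2]
  exact C.H.mul_mem (C.h_mem _ (mul_ne_zero (ne_zero_of_sq b1) ht))
    (C.H.inv_mem (C.h_mem _ (ne_zero_of_sq b1)))

variable (C)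

theorem cj_simple (i : B) : C.Cj (C.n (Φ.simple i) 1) (Φ.cs.simple i) := C.nconj i

/-- The product of the `n_i` along a word. -/
def nw (ω : List B) : G := (ω.map fun i => C.n (Φ.simple i) 1).prod

@[simp] theorem nw_nil : C.nw [] = 1 := rfl

theorem nw_cons (i : B) (ω : List B) : C.nw (i :: ω) = C.n (Φ.simple i) 1 * C.nw ω := by
  simp [nw]

theorem cj_nw (ω : List B) : C.Cj (C.nw ω) (Φ.cs.wordProd ω) := by
  induction ω with
  | nil => simpa using Cj.one C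
  | cons i ω ih => rw [nw_cons, wordProd_cons]; exact (C.cj_simple i).mul ih

theorem nw_mem (ω : List B) : C.nw ω ∈ C.N := by
  induction ω with
  | nil => exact C.N.one_mem
  | cons i ω ih => rw [nw_cons]; exact C.N.mul_mem (C.n_mem _ one_ne_zero) ih

theorem exists_cj (w : W) : ∃ g ∈ C.N, C.Cj g w := by
  obtain ⟨ω, rfl⟩ := Φ.cs.wordProd_surjective w
  exact ⟨_, C.nw_mem ω, C.cj_nw ω⟩

/-- `g` scales every root subgroup. -/
def Sc (g : G) : Prop := ∀ s, ∃ k : F, k ≠ 0 ∧ ∀ t, g * C.x s t * g⁻¹ = C.x s (k * t)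

theorem x_one_ne (r : R) : C.x r 1 ≠ 1 := by
  obtain ⟨v, i, rfl⟩ := Φ.exists_simple r
  obtain ⟨g, -, hg⟩ := C.exists_cj v⁻¹
  obtain ⟨g', -, hg'⟩ := C.exists_cj v
  intro h
  obtain ⟨η, b1, b2, -⟩ := hg (Φ.act v (Φ.simple i))
  have h1 := b2 1
  rw [h, Φ.act_inv_act, mul_one, mul_inv_cancel, mul_one] at h1
  apply C.nondeg i (Φ.neg (Φ.simple i)) 0 (Φ.not_pos_neg_simple i)
  rw [x_zero]
  rcases mul_self_eq_one_iff.1 b1 with rfl | rfl
  · exact h1.symm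
  · rw [x_neg] at h1
    exact inv_eq_one.1 h1.symm

/-- The elements scaling all root subgroups form a subgroup. -/
def scSub : Subgroup G where
  carrier := {g | C.Sc g}
  one_mem' := fun s => ⟨1, one_ne_zero, by simp⟩
  mul_mem' := by
    intro a b ha hb s
    obtain ⟨k, hk, h1⟩ := ha s
    obtain ⟨l, hl, h2⟩ := hb s
    refine ⟨k * l, mul_ne_zero hk hl, fun t => ?_⟩
    rw [mul_assoc k, ← h1, ← h2]; group
  inv_mem' := by
    intro a ha s
    obtain ⟨k, hk, h1⟩ := ha s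
    refine ⟨k⁻¹, inv_ne_zero hk, fun t => ?_⟩
    have := h1 (k⁻¹ * t)
    rw [← mul_assoc, mul_inv_cancel₀ hk, one_mul] at this
    rw [← this]; group

theorem sc_h_simple (i : B) {c : F} (hc : c ≠ 0) : C.Sc (C.h (Φ.simple i) c) := by
  intro s
  obtain ⟨k, hk⟩ := C.hconj i c hc s
  refine ⟨k, ?_, hk⟩
  rintro rfl
  have := hk 1
  rw [zero_mul, x_zero, mul_inv_eq_one, mul_eq_left] at this
  exact C.x_one_ne s this

theorem Cj.conj_sc {g : G} {w : W} (h : C.Cj g w) {k : G} (hk : C.Sc k) : C.Sc (g * k * g⁻¹) := by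
  intro s
  obtain ⟨η, b1, b2, -⟩ := h (Φ.act w⁻¹ s)
  obtain ⟨c, hc, c1⟩ := hk (Φ.act w⁻¹ s)
  rw [Φ.act_act_inv] at b2
  refine ⟨c, hc, fun t => ?_⟩
  have e1 := b2 (η * t)
  have e2 := b2 (c * (η * t))
  rw [← mul_assoc η, b1, one_mul] at e1
  rw [show η * (c * (η * t)) = c * t by linear_combination c * t * b1] at e2
  rw [← e1, ← e2, ← c1]; group

theorem sc_of_mem_H {k : G} (hk : k ∈ C.H) : C.Sc k := by
  refine (Subgroup.closure_le C.scSub).2 ?_ hk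
  rintro _ ⟨r, t, ht, rfl⟩
  obtain ⟨v, i, rfl⟩ := Φ.exists_simple r
  obtain ⟨g, -, hg⟩ := C.exists_cj v
  obtain ⟨η, b1, b2⟩ := hg.conj_h (Φ.simple i)
  have hη := ne_zero_of_sq b1
  have h1 : (C.h (Φ.act v (Φ.simple i)) η)⁻¹ ∈ C.scSub := by
    have := b2 η
    rw [b1, h_one, one_mul] at this
    rw [← this]
    exact Cj.conj_sc C hg (C.sc_h_simple i hη)
  have h2 := b2 (η * t)
  rw [← mul_assoc η, b1, one_mul] at h2
  have h3 : C.h (Φ.act v (Φ.simple i)) t * (C.h (Φ.act v (Φ.simple i)) η)⁻¹ ∈ C.scSub := by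
    rw [← h2]
    exact Cj.conj_sc C hg (C.sc_h_simple i (mul_ne_zero hη ht))
  simpa using C.scSub.mul_mem h3 (C.scSub.inv_mem h1)

theorem n_eq_conj (r : R) : ∃ k ∈ C.H, ∃ ω i, r = Φ.act (Φ.cs.wordProd ω) (Φ.simple i) ∧
    C.n r 1 = k * (C.nw ω * C.n (Φ.simple i) 1 * (C.nw ω)⁻¹) := by
  obtain ⟨v, i, rfl⟩ := Φ.exists_simple r
  obtain ⟨ω, rfl⟩ := Φ.cs.wordProd_surjective v
  obtain ⟨η, b1, -, b2⟩ := (C.cj_nw ω).conj_n (Φ.simple i)
  refine ⟨(C.h (Φ.act (Φ.cs.wordProd ω) (Φ.simple i)) η)⁻¹,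
    C.H.inv_mem (C.h_mem _ (ne_zero_of_sq b1)), ω, i, rfl, ?_⟩
  rw [b2, mul_one, C.n_eq _ η, inv_mul_cancel_left]

theorem N_conj_H {g : G} (hg : g ∈ C.N) : ∀ k ∈ C.H, g * k * g⁻¹ ∈ C.H := by
  have : C.N ≤ Subgroup.normalizer (C.H : Set G) := by
    refine sup_le Subgroup.le_normalizer ((Subgroup.closure_le _).2 ?_)
    rintro _ ⟨r, rfl⟩
    obtain ⟨k, hk, ω, i, -, e⟩ := C.n_eq_conj r
    have hcj := ((C.cj_nw ω).mul (C.cj_simple i)).mul (C.cj_nw ω).inv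
    rw [e]
    refine Subgroup.mul_mem _ (Subgroup.le_normalizer hk) ?_
    rw [Subgroup.mem_normalizer_iff]
    refine fun y => ⟨hcj.conj_H, fun hy => ?_⟩
    have := hcj.inv.conj_H hy
    simpa [mul_assoc] using this
  exact Subgroup.le_normalizer_iff.1 this g hg

instance normalHN : (C.H.subgroupOf C.N).Normal :=
  ⟨fun k hk g => C.N_conj_H g.2 k hk⟩

/-- The class of `n_r` in `N / H`. -/
def ν (r : R) : C.N ⧸ C.H.subgroupOf C.N := QuotientGroup.mk ⟨C.n r 1, C.n_mem r one_ne_zero⟩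

theorem mk_H {k : G} (hk : k ∈ C.H) (hk' : k ∈ C.N) :
    (QuotientGroup.mk ⟨k, hk'⟩ : C.N ⧸ C.H.subgroupOf C.N) = 1 :=
  (QuotientGroup.eq_one_iff _).2 hk

theorem mk_n (r : R) {t : F} (ht : t ≠ 0) :
    (QuotientGroup.mk ⟨C.n r t, C.n_mem r ht⟩ : C.N ⧸ C.H.subgroupOf C.N) = C.ν r := by
  have : (⟨C.n r t, C.n_mem r ht⟩ : C.N) =
      ⟨C.h r t, C.H_le_N (C.h_mem r ht)⟩ * ⟨C.n r 1, C.n_mem r one_ne_zero⟩ := Subtype.ext (C.n_eq r t)
  rw [this, QuotientGroup.mk_mul, C.mk_H (C.h_mem r ht), one_mul, ν]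

theorem ν_sq (r : R) : C.ν r * C.ν r = 1 := by
  conv_lhs => enter [1]; rw [← C.mk_n r (t := -1) (by simp)]
  rw [ν, ← QuotientGroup.mk_mul]
  have : (⟨C.n r (-1), C.n_mem r (by simp)⟩ * ⟨C.n r 1, C.n_mem r one_ne_zero⟩ : C.N) = 1 :=
    Subtype.ext (by simp [C.n_neg])
  rw [this, QuotientGroup.mk_one]

theorem ν_conj {g : G} (hg : g ∈ C.N) {w : W} (h : C.Cj g w) (r : R) :
    (QuotientGroup.mk ⟨g, hg⟩ : C.N ⧸ C.H.subgroupOf C.N) * C.ν r * (QuotientGroup.mk ⟨g, hg⟩)⁻¹ =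
      C.ν (Φ.act w r) := by
  obtain ⟨η, b1, -, b2⟩ := h.conj_n r
  rw [← C.mk_n (Φ.act w r) (ne_zero_of_sq b1), ν, ← QuotientGroup.mk_inv, ← QuotientGroup.mk_mul,
    ← QuotientGroup.mk_mul]
  congr 1
  exact Subtype.ext (by simpa using b2 1)

theorem ν_neg_simple (i : B) : C.ν (Φ.neg (Φ.simple i)) = C.ν (Φ.simple i) := by
  rw [← Φ.act_simple_self, ← C.ν_conj (C.n_mem _ one_ne_zero) (C.cj_simple i)]
  simp [ν]

theorem act_eq_of_conj {w : W} {i j : B} (h : w * Φ.cs.simple i = Φ.cs.simple j * w) :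
    Φ.act w (Φ.simple i) = Φ.simple j ∨ Φ.act w (Φ.simple i) = Φ.neg (Φ.simple j) := by
  have h1 : Φ.act (Φ.cs.simple j) (Φ.act w (Φ.simple i)) = Φ.neg (Φ.act w (Φ.simple i)) := by
    rw [← Φ.act_mul, ← h, Φ.act_mul, Φ.act_simple_self, Φ.act_neg]
  by_cases hp : Φ.Pos (Φ.act w (Φ.simple i))
  · left
    by_contra hc
    have := Φ.pos_act_simple hp hc
    rw [h1, Φ.pos_neg_iff] at this
    exact this hp
  · right
    by_contra hc
    have := Φ.pos_act_simple (i := j) ((Φ.pos_neg_iff _).2 hp) (fun e => hc (by rw [← e, Φ.neg_neg]))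
    rw [Φ.act_neg, h1, Φ.neg_neg] at this
    exact hp this

theorem dihedral_conj {Q : Type*} [Group Q] {a b : Q} (ha : a * a = 1) (hb : b * b = 1) (k : ℕ) :
    (a * b) ^ k * a * ((a * b) ^ k)⁻¹ = (a * b) ^ (2 * k) * a := by
  have h1 : a * (a * b)⁻¹ = a * b * a := by
    rw [mul_inv_rev, inv_eq_of_mul_eq_one_right ha, inv_eq_of_mul_eq_one_right hb, mul_assoc]
  have h2 : ∀ m : ℕ, a * ((a * b) ^ m)⁻¹ = (a * b) ^ m * a := by
    intro m
    induction m with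
    | zero => simp
    | succ m ih =>
      rw [pow_succ', mul_inv_rev, ← mul_assoc, ih, mul_assoc, h1, ← mul_assoc, ← pow_succ,
        ← pow_succ']
  rw [mul_assoc, h2, ← mul_assoc, ← pow_add, two_mul]

theorem liftable : Φ.M.IsLiftable fun i => C.ν (Φ.simple i) := by
  intro i j
  have hcj : ∀ k : ℕ, C.Cj ((C.n (Φ.simple i) 1 * C.n (Φ.simple j) 1) ^ k)
      ((Φ.cs.simple i * Φ.cs.simple j) ^ k) := by
    intro k
    induction k with
    | zero => simpa using Cj.one C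
    | succ k ih => rw [pow_succ, pow_succ]; exact ih.mul ((C.cj_simple i).mul (C.cj_simple j))
  have hmem : ∀ k : ℕ, (C.n (Φ.simple i) 1 * C.n (Φ.simple j) 1) ^ k ∈ C.N := fun k =>
    C.N.pow_mem (C.N.mul_mem (C.n_mem _ one_ne_zero) (C.n_mem _ one_ne_zero)) k
  have hmk : ∀ k : ℕ, (QuotientGroup.mk ⟨_, hmem k⟩ : C.N ⧸ C.H.subgroupOf C.N) =
      (C.ν (Φ.simple i) * C.ν (Φ.simple j)) ^ k := by
    intro k
    rw [ν, ν, ← QuotientGroup.mk_mul, ← QuotientGroup.mk_pow]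
    rfl
  have key : ∀ (k : ℕ) (l : B), (Φ.cs.simple i * Φ.cs.simple j) ^ (2 * k) * Φ.cs.simple i =
      Φ.cs.simple l → (C.ν (Φ.simple i) * C.ν (Φ.simple j)) ^ (2 * k) * C.ν (Φ.simple i) =
        C.ν (Φ.simple l) := by
    intro k l h
    rw [← dihedral_conj (Φ.cs.simple_mul_simple_self i) (Φ.cs.simple_mul_simple_self j),
      mul_inv_eq_iff_eq_mul] at h
    rw [← dihedral_conj (C.ν_sq _) (C.ν_sq _), ← hmk, C.ν_conj _ (hcj k)]
    rcases act_eq_of_conj h with e | e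
    · rw [e]
    · rw [e, ν_neg_simple]
  have hM := Φ.cs.simple_mul_simple_pow i j
  rcases Nat.even_or_odd' (Φ.M i j) with ⟨k, hk | hk⟩
  · rw [hk] at hM ⊢
    have := key k i (by rw [hM, one_mul])
    exact mul_eq_right.1 this
  · rw [hk] at hM ⊢
    have := key k j (by
      rw [pow_succ, ← mul_assoc, mul_eq_one_iff_eq_inv, inv_simple] at hM
      exact hM)
    rw [pow_succ, ← mul_assoc, this, ν_sq]

/-- The map from the Weyl group to `N / H`. -/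
noncomputable def lam : W →* C.N ⧸ C.H.subgroupOf C.N := Φ.cs.lift ⟨_, C.liftable⟩

theorem lam_simple (i : B) : C.lam (Φ.cs.simple i) = C.ν (Φ.simple i) :=
  Φ.cs.lift_apply_simple C.liftable i

theorem lam_word (ω : List B) : C.lam (Φ.cs.wordProd ω) = QuotientGroup.mk ⟨C.nw ω, C.nw_mem ω⟩ := by
  induction ω with
  | nil => simp only [wordProd_nil, map_one]; rfl
  | cons i ω ih =>
    rw [wordProd_cons, map_mul, ih, lam_simple, ν, ← QuotientGroup.mk_mul]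
    congr 1

theorem lam_bijective : Function.Bijective C.lam := by
  constructor
  · rw [injective_iff_map_eq_one]
    intro w hw
    obtain ⟨ω, rfl⟩ := Φ.cs.wordProd_surjective w
    rw [lam_word, QuotientGroup.eq_one_iff] at hw
    by_contra hne
    obtain ⟨i, hi⟩ := Φ.exists_not_pos hne
    obtain ⟨k, hk, h1⟩ := C.sc_of_mem_H hw (Φ.simple i)
    obtain ⟨η, -, h2, -⟩ := C.cj_nw ω (Φ.simple i)
    refine C.nondeg i _ (η * k⁻¹) hi ?_
    rw [← h2]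
    have := h1 k⁻¹
    rw [mul_inv_cancel₀ hk] at this
    exact this.symm
  · rw [← MonoidHom.range_eq_top, eq_top_iff]
    intro q _
    obtain ⟨⟨g, hg⟩, rfl⟩ := QuotientGroup.mk_surjective q
    let K : Subgroup G := (C.lam.range.comap (QuotientGroup.mk' _)).map C.N.subtype
    have : C.N ≤ K := by
      refine sup_le (fun k hk => ⟨⟨k, C.H_le_N hk⟩, ⟨1, ?_⟩, rfl⟩) ((Subgroup.closure_le _).2 ?_)
      · rw [map_one]; exact (C.mk_H hk _).symm
      · rintro _ ⟨r, rfl⟩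
        refine ⟨⟨_, C.n_mem r one_ne_zero⟩, ?_, rfl⟩
        obtain ⟨v, i, rfl⟩ := Φ.exists_simple r
        obtain ⟨ω, rfl⟩ := Φ.cs.wordProd_surjective v
        refine ⟨Φ.cs.wordProd ω * Φ.cs.simple i * (Φ.cs.wordProd ω)⁻¹, ?_⟩
        rw [map_mul, map_mul, map_inv, lam_word, lam_simple, C.ν_conj _ (C.cj_nw ω)]
        rfl
    obtain ⟨⟨g', hg'⟩, h1, rfl⟩ := this hg
    exact h1

/-- The projection `N → W`. -/
noncomputable def π : C.N →* W :=
  (MulEquiv.ofBijective C.lam C.lam_bijective).symm.toMonoidHom.comp (QuotientGroup.mk' _)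

theorem π_eq_iff (g : C.N) (w : W) : C.π g = w ↔ QuotientGroup.mk g = C.lam w := by
  simp only [π, MulEquiv.toMonoidHom_eq_coe, MonoidHom.comp_apply, MonoidHom.coe_coe,
    MulEquiv.symm_apply_eq]
  rfl

theorem π_nw (ω : List B) : C.π ⟨C.nw ω, C.nw_mem ω⟩ = Φ.cs.wordProd ω :=
  (C.π_eq_iff _ _).2 (C.lam_word ω).symm

theorem π_n {i : B} {t : F} (ht : t ≠ 0) : C.π ⟨C.n (Φ.simple i) t, C.n_mem _ ht⟩ = Φ.cs.simple i :=
  (C.π_eq_iff _ _).2 (by rw [C.mk_n _ ht, lam_simple])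

theorem H_le_gen : C.H ≤ XS C.X fun _ => True := by rw [C.gen]; exact le_top

/-- The root group data of a Chevalley system. -/
noncomputable def rgd0 : RGD0 Φ G where
  X := C.X
  H := C.H
  N := C.N
  π := C.π
  H_le := C.H_le_N
  surj := fun w => by
    obtain ⟨ω, rfl⟩ := Φ.cs.wordProd_surjective w
    exact ⟨_, C.π_nw ω⟩
  ker := fun g => by rw [π_eq_iff, map_one, QuotientGroup.eq_one_iff]; rfl
  conj := fun g r y hy => by
    obtain ⟨t, rfl⟩ := C.mem_X.1 hy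
    obtain ⟨ω, hω⟩ := Φ.cs.wordProd_surjective (C.π g)
    have h1 := (C.π_eq_iff g _).1 hω.symm
    rw [lam_word, QuotientGroup.eq] at h1
    obtain ⟨k, -, h2⟩ := C.sc_of_mem_H (C.H.inv_mem h1) r
    obtain ⟨η, -, h3, -⟩ := C.cj_nw ω r
    rw [← hω]
    refine C.mem_X.2 ⟨η * (k * t), ?_⟩
    rw [← h3, ← h2]
    simp [mul_assoc]
  comm := fun r s h1 h2 a ha b hb => by
    obtain ⟨t, rfl⟩ := C.mem_X.1 ha
    obtain ⟨u, rfl⟩ := C.mem_X.1 hb
    exact C.comm r s h1 h2 t u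
  rank1 := fun i y hy h1 => by
    obtain ⟨t, rfl⟩ := C.mem_X.1 hy
    have ht : t ≠ 0 := by rintro rfl; exact h1 (C.x_zero _)
    have ht' : -t⁻¹ ≠ 0 := neg_ne_zero.2 (inv_ne_zero ht)
    refine ⟨_, C.x_mem _ t⁻¹, _, C.x_mem _ t⁻¹, ⟨_, C.n_mem _ ht'⟩, C.π_n ht', ?_⟩
    simp only [nn, inv_neg, inv_inv, neg_neg, C.x_neg]
    group
  gen := by rw [C.gen]; simp
  N_le := fun i => ⟨⟨_, C.n_mem _ one_ne_zero⟩, C.π_n one_ne_zero, Subgroup.mem_sup_left
    (Subgroup.mul_mem _ (Subgroup.mul_mem _ (Subgroup.mem_sup_left (C.x_mem _ _))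
      (Subgroup.mem_sup_right (C.x_mem _ _))) (Subgroup.mem_sup_left (C.x_mem _ _)))⟩

theorem rep_n {i : B} {t : F} (ht : t ≠ 0) : C.rgd0.Rep (C.n (Φ.simple i) t) (Φ.cs.simple i) :=
  ⟨C.n_mem _ ht, C.π_n ht⟩

theorem rep_nw (ω : List B) : C.rgd0.Rep (C.nw ω) (Φ.cs.wordProd ω) := ⟨C.nw_mem ω, C.π_nw ω⟩

/-- The root group data of a non-degenerate Chevalley system. -/
noncomputable def rgd (hBV : ∀ g ∈ C.rgd0.Bor, g ∈ C.rgd0.V → g = 1) : RGD Φ G where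
  toRGD0 := C.rgd0
  BV := hBV
  nontriv := fun i h => C.x_one_ne (Φ.simple i) (by
    have := C.x_mem (Φ.simple i) 1
    change C.X (Φ.simple i) = ⊥ at h
    rwa [h, Subgroup.mem_bot] at this)

end ChevSys

end CA.BN
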