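import Cfsg.Agent.Lib.Weyl.Roots
import Cfsg.Agent.Lib.BN.Basic

/-!
Abstract root group data: a group with root subgroups `X r`, a torus `H` and a monomial subgroup `N`
mapping onto the Weyl group. Products of root subgroups, the (Levi-relative) Bruhat decomposition, the
(B, N)-pair, uniqueness of the normal form, and counting.
-/

set_option autoImplicit false
set_option linter.unusedSectionVars false

namespace CA.BN

open CA.Weyl CoxeterSystem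
open scoped Pointwise

theorem mem_sup_of_le_normalizer {G : Type*} [Group G] {K L : Subgroup G}
    (h : K ≤ Subgroup.normalizer (L : Set G)) {g : G} (hg : g ∈ K ⊔ L) :
    ∃ a ∈ K, ∃ b ∈ L, g = a * b := by
  have : g ∈ (K : Set G) * (L : Set G) := by
    rw [← Subgroup.coe_mul_of_left_le_normalizer_right K L h]; exact hg
  obtain ⟨a, ha, b, hb, e⟩ := this
  exact ⟨a, ha, b, hb, e.symm⟩

theorem mem_sup_of_le_normalizer' {G : Type*} [Group G] {K L : Subgroup G}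
    (h : K ≤ Subgroup.normalizer (L : Set G)) {g : G} (hg : g ∈ K ⊔ L) :
    ∃ b ∈ L, ∃ a ∈ K, g = b * a := by
  obtain ⟨a, ha, b, hb, e⟩ := mem_sup_of_le_normalizer h hg
  exact ⟨a * b * a⁻¹, Subgroup.le_normalizer_iff.1 h a ha b hb, a, ha, by rw [e]; group⟩

variable {B R W : Type*} [Fintype B] [DecidableEq B] [Group W]

/-- The subgroup generated by the root subgroups `X r` with `S r`. -/
def XS {G : Type*} [Group G] (X : R → Subgroup G) (S : R → Prop) : Subgroup G := ⨆ r, ⨆ (_ : S r), X r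

section XS

variable {G : Type*} [Group G] {X : R → Subgroup G}

theorem le_XS {S : R → Prop} {r : R} (h : S r) : X r ≤ XS X S :=
  le_iSup₂_of_le (f := fun r (_ : S r) => X r) r h le_rfl

theorem XS_le {S : R → Prop} {K : Subgroup G} : XS X S ≤ K ↔ ∀ r, S r → X r ≤ K := by
  simp [XS]

theorem XS_mono {S T : R → Prop} (h : ∀ r, S r → T r) : XS X S ≤ XS X T :=
  XS_le.2 fun r hr => le_XS (h r hr)

theorem XS_congr {S T : R → Prop} (h : ∀ r, S r ↔ T r) : XS X S = XS X T :=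
  le_antisymm (XS_mono fun r => (h r).1) (XS_mono fun r => (h r).2)

theorem XS_map_mem {G' : Type*} [Group G'] (f : G →* G') {S : R → Prop} {K : Subgroup G'}
    (h : ∀ r, S r → ∀ x ∈ X r, f x ∈ K) {y : G} (hy : y ∈ XS X S) : f y ∈ K :=
  (XS_le (K := K.comap f)).2 h hy

theorem XS_conj_mem (g : G) {S : R → Prop} {K : Subgroup G}
    (h : ∀ r, S r → ∀ x ∈ X r, g * x * g⁻¹ ∈ K) {y : G} (hy : y ∈ XS X S) : g * y * g⁻¹ ∈ K :=
  XS_map_mem (MulAut.conj g).toMonoidHom h hy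

theorem XS_induction {S : R → Prop} {C : G → Prop} {y : G} (hy : y ∈ XS X S)
    (mem : ∀ r, S r → ∀ x ∈ X r, C x) (one : C 1) (mul : ∀ x y, C x → C y → C (x * y)) : C y :=
  Subgroup.iSup_induction (C := C) _ hy (fun r _ hx =>
    Subgroup.iSup_induction (C := C) _ hx (fun hr x hx => mem r hr x hx) one mul) one mul

end XS

/-- Root group data (without the non-degeneracy conditions). -/
structure RGD0 (Φ : RS B R W) (G : Type*) [Group G] where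
  X : R → Subgroup G
  H : Subgroup G
  N : Subgroup G
  π : N →* W
  H_le : H ≤ N
  surj : Function.Surjective π
  ker : ∀ n : N, π n = 1 ↔ (n : G) ∈ H
  conj : ∀ (n : N) (r : R), ∀ x ∈ X r, (n : G) * x * (n : G)⁻¹ ∈ X (Φ.act (π n) r)
  comm : ∀ r s, s ≠ r → s ≠ Φ.neg r → ∀ x ∈ X r, ∀ y ∈ X s,
    x * y * x⁻¹ * y⁻¹ ∈ XS X (Φ.Cone r s)
  rank1 : ∀ i, ∀ x ∈ X (Φ.neg (Φ.simple i)), x ≠ 1 → ∃ a ∈ X (Φ.simple i), ∃ b ∈ X (Φ.simple i),
    ∃ n : N, π n = Φ.cs.simple i ∧ x = a * n * b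
  gen : XS X (fun _ => True) ⊔ H = ⊤
  N_le : ∀ i, ∃ n : N, π n = Φ.cs.simple i ∧
    (n : G) ∈ X (Φ.simple i) ⊔ X (Φ.neg (Φ.simple i)) ⊔ H

namespace RGD0

variable {Φ : RS B R W} {G : Type*} [Group G] (Γ : RGD0 Φ G)

/-- `n ∈ N` represents `w`. -/
def Rep (n : G) (w : W) : Prop := ∃ hn : n ∈ Γ.N, Γ.π ⟨n, hn⟩ = w

/-- The positive unipotent subgroup of the Levi subgroup on `J`. -/
def UJ (J : Set B) : Subgroup G := XS Γ.X fun r => Φ.Pos r ∧ Φ.InSub J r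
/-- The negative unipotent subgroup of the Levi subgroup on `J`. -/
def VJ (J : Set B) : Subgroup G := XS Γ.X fun r => ¬ Φ.Pos r ∧ Φ.InSub J r
/-- The positive unipotent subgroup. -/
def U : Subgroup G := XS Γ.X Φ.Pos
/-- The negative unipotent subgroup. -/
def V : Subgroup G := XS Γ.X fun r => ¬ Φ.Pos r
/-- The unipotent radical of the parabolic subgroup on `J`. -/
def Rad (J : Set B) : Subgroup G := XS Γ.X fun r => Φ.Pos r ∧ ¬ Φ.InSub J r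
/-- The subgroup generated by the root subgroups of the inversions of `w`. -/
def Uw (w : W) : Subgroup G := XS Γ.X fun r => Φ.Pos r ∧ ¬ Φ.Pos (Φ.act w r)
/-- The Levi subgroup on `J`. -/
def L (J : Set B) : Subgroup G := XS Γ.X (Φ.InSub J) ⊔ Γ.H
/-- The Borel subgroup. -/
def Bor : Subgroup G := Γ.U ⊔ Γ.H

variable {Γ}

theorem Rep.mem {n : G} {w : W} (h : Γ.Rep n w) : n ∈ Γ.N := h.1

theorem Rep.mul {n n' : G} {w w' : W} (h : Γ.Rep n w) (h' : Γ.Rep n' w') :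
    Γ.Rep (n * n') (w * w') := by
  obtain ⟨hn, rfl⟩ := h
  obtain ⟨hn', rfl⟩ := h'
  exact ⟨Γ.N.mul_mem hn hn', by rw [← map_mul]; rfl⟩

theorem Rep.inv {n : G} {w : W} (h : Γ.Rep n w) : Γ.Rep n⁻¹ w⁻¹ := by
  obtain ⟨hn, rfl⟩ := h
  exact ⟨Γ.N.inv_mem hn, by rw [← map_inv]; rfl⟩

theorem rep_one_iff {n : G} : Γ.Rep n 1 ↔ n ∈ Γ.H :=
  ⟨fun ⟨hn, h⟩ => (Γ.ker ⟨n, hn⟩).1 h, fun h => ⟨Γ.H_le h, (Γ.ker ⟨n, Γ.H_le h⟩).2 h⟩⟩

theorem Rep.unique {n : G} {w w' : W} (h : Γ.Rep n w) (h' : Γ.Rep n w') : w = w' :=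
  h.2.symm.trans h'.2

theorem Rep.inv_mul_mem {n n' : G} {w : W} (h : Γ.Rep n w) (h' : Γ.Rep n' w) : n⁻¹ * n' ∈ Γ.H := by
  have := h.inv.mul h'
  rwa [inv_mul_cancel, rep_one_iff] at this

theorem Rep.mul_inv_mem {n n' : G} {w : W} (h : Γ.Rep n w) (h' : Γ.Rep n' w) : n * n'⁻¹ ∈ Γ.H := by
  have := h.mul h'.inv
  rwa [mul_inv_cancel, rep_one_iff] at this

theorem Rep.H_mul {n h : G} {w : W} (hn : Γ.Rep n w) (hh : h ∈ Γ.H) : Γ.Rep (h * n) w := by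
  simpa using (rep_one_iff.2 hh).mul hn

theorem Rep.mul_H {n h : G} {w : W} (hn : Γ.Rep n w) (hh : h ∈ Γ.H) : Γ.Rep (n * h) w := by
  simpa using hn.mul (rep_one_iff.2 hh)

variable (Γ) in
theorem exists_rep (w : W) : ∃ n, Γ.Rep n w := by
  obtain ⟨n, h⟩ := Γ.surj w
  exact ⟨n, n.2, h⟩

theorem exists_rep_of_mem {n : G} (hn : n ∈ Γ.N) : ∃ w, Γ.Rep n w := ⟨_, hn, rfl⟩

theorem Rep.conj {n : G} {w : W} (h : Γ.Rep n w) {r : R} {x : G} (hx : x ∈ Γ.X r) :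
    n * x * n⁻¹ ∈ Γ.X (Φ.act w r) := by
  obtain ⟨hn, rfl⟩ := h
  exact Γ.conj ⟨n, hn⟩ r x hx

theorem Rep.conj' {n : G} {w : W} (h : Γ.Rep n w) {r : R} {x : G} (hx : x ∈ Γ.X r) :
    n⁻¹ * x * n ∈ Γ.X (Φ.act w⁻¹ r) := by
  simpa using h.inv.conj hx

theorem Rep.conj_H {n : G} {w : W} (h : Γ.Rep n w) {x : G} (hx : x ∈ Γ.H) : n * x * n⁻¹ ∈ Γ.H := by
  have := (h.mul_H hx).mul h.inv
  rwa [mul_inv_cancel, rep_one_iff] at this

theorem Rep.conj_XS {n : G} {w : W} (h : Γ.Rep n w) {S T : R → Prop}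
    (hST : ∀ r, S r → T (Φ.act w r)) {x : G} (hx : x ∈ XS Γ.X S) : n * x * n⁻¹ ∈ XS Γ.X T :=
  XS_conj_mem n (fun r hr _ hy => le_XS (hST r hr) (h.conj hy)) hx

theorem Rep.conj_XS' {n : G} {w : W} (h : Γ.Rep n w) {S T : R → Prop}
    (hST : ∀ r, S r → T (Φ.act w⁻¹ r)) {x : G} (hx : x ∈ XS Γ.X S) : n⁻¹ * x * n ∈ XS Γ.X T := by
  simpa using h.inv.conj_XS hST hx

theorem H_conj_X {h : G} (hh : h ∈ Γ.H) {r : R} {x : G} (hx : x ∈ Γ.X r) : h * x * h⁻¹ ∈ Γ.X r := by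
  simpa using (rep_one_iff.2 hh).conj hx

theorem H_conj_XS {h : G} (hh : h ∈ Γ.H) {S : R → Prop} {x : G} (hx : x ∈ XS Γ.X S) :
    h * x * h⁻¹ ∈ XS Γ.X S :=
  (rep_one_iff.2 hh).conj_XS (fun r hr => by simpa using hr) hx

variable (Γ) in
theorem H_le_normalizer (S : R → Prop) : Γ.H ≤ Subgroup.normalizer (XS Γ.X S : Set G) :=
  Subgroup.le_normalizer_iff.2 fun _ hh _ hx => H_conj_XS hh hx

variable (Γ) in
theorem XS_le_normalizer {S T : R → Prop}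
    (h : ∀ r s, S r → T s → s = r ∨ (s ≠ Φ.neg r ∧ ∀ t, Φ.Cone r s t → T t)) :
    XS Γ.X S ≤ Subgroup.normalizer (XS Γ.X T : Set G) := by
  refine XS_le.2 fun r hr => Subgroup.le_normalizer_iff.2 fun x hx y hy => ?_
  refine XS_conj_mem x (fun s hs z hz => ?_) hy
  by_cases hsr : s = r
  · subst hsr
    exact le_XS hs ((Γ.X s).mul_mem ((Γ.X s).mul_mem hx hz) ((Γ.X s).inv_mem hx))
  · obtain ⟨h1, h2⟩ := (h r s hr hs).resolve_left hsr
    have := (XS Γ.X T).mul_mem (XS_mono h2 (Γ.comm r s hsr h1 x hx z hz)) (le_XS hs hz)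
    simpa using this

theorem mem_Bor {b : G} : b ∈ Γ.Bor ↔ ∃ u ∈ Γ.U, ∃ h ∈ Γ.H, b = u * h := by
  constructor
  · intro hb
    rw [Bor, sup_comm] at hb
    exact mem_sup_of_le_normalizer' (Γ.H_le_normalizer _) hb
  · rintro ⟨u, hu, h, hh, rfl⟩
    exact Γ.Bor.mul_mem (Subgroup.mem_sup_left hu) (Subgroup.mem_sup_right hh)

theorem mem_U {r : R} {x : G} (h : Φ.Pos r) (hx : x ∈ Γ.X r) : x ∈ Γ.U := le_XS h hx
theorem mem_V {r : R} {x : G} (h : ¬ Φ.Pos r) (hx : x ∈ Γ.X r) : x ∈ Γ.V :=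
  le_XS (S := fun r => ¬ Φ.Pos r) h hx
theorem mem_UJ {J : Set B} {r : R} {x : G} (h : Φ.Pos r) (h' : Φ.InSub J r) (hx : x ∈ Γ.X r) :
    x ∈ Γ.UJ J := le_XS (S := fun r => Φ.Pos r ∧ Φ.InSub J r) ⟨h, h'⟩ hx
theorem mem_VJ {J : Set B} {r : R} {x : G} (h : ¬ Φ.Pos r) (h' : Φ.InSub J r) (hx : x ∈ Γ.X r) :
    x ∈ Γ.VJ J := le_XS (S := fun r => ¬ Φ.Pos r ∧ Φ.InSub J r) ⟨h, h'⟩ hx
theorem mem_Uw {w : W} {r : R} {x : G} (h : Φ.Pos r) (h' : ¬ Φ.Pos (Φ.act w r)) (hx : x ∈ Γ.X r) :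
    x ∈ Γ.Uw w := le_XS (S := fun r => Φ.Pos r ∧ ¬ Φ.Pos (Φ.act w r)) ⟨h, h'⟩ hx
theorem mem_Rad {J : Set B} {r : R} {x : G} (h : Φ.Pos r) (h' : ¬ Φ.InSub J r) (hx : x ∈ Γ.X r) :
    x ∈ Γ.Rad J := le_XS (S := fun r => Φ.Pos r ∧ ¬ Φ.InSub J r) ⟨h, h'⟩ hx

theorem U_le_Bor : Γ.U ≤ Γ.Bor := le_sup_left
theorem H_le_Bor : Γ.H ≤ Γ.Bor := le_sup_right
theorem UJ_le_U (J : Set B) : Γ.UJ J ≤ Γ.U := XS_mono fun _ h => h.1
theorem VJ_le_V (J : Set B) : Γ.VJ J ≤ Γ.V := XS_mono fun _ h => h.1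
theorem Uw_le_U (w : W) : Γ.Uw w ≤ Γ.U := XS_mono fun _ h => h.1
theorem Rad_le_U (J : Set B) : Γ.Rad J ≤ Γ.U := XS_mono fun _ h => h.1
theorem UJ_univ : Γ.UJ Set.univ = Γ.U := XS_congr fun r => by simp [Φ.inSub_univ]
theorem UJ_le_L (J : Set B) : Γ.UJ J ≤ Γ.L J := (XS_mono fun _ h => h.2).trans le_sup_left
theorem VJ_le_L (J : Set B) : Γ.VJ J ≤ Γ.L J := (XS_mono fun _ h => h.2).trans le_sup_left
theorem L_univ : Γ.L Set.univ = ⊤ := by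
  rw [← Γ.gen, L, XS_congr (T := fun _ => True) fun r => by simp [Φ.inSub_univ]]

theorem Uw_le_UJ {J : Set B} {w : W} (hw : w ∈ par Φ.cs J) : Γ.Uw w ≤ Γ.UJ J :=
  XS_mono fun _ h => ⟨h.1, Φ.inSub_of_inv hw h.1 h.2⟩

theorem Uw_longest {J : Set B} {w : W} (hw : IsLongest Φ.cs J w) : Γ.Uw w = Γ.UJ J :=
  XS_congr fun _ => and_congr_right fun hr => Φ.longest_iff hw hr

theorem Uw_one : Γ.Uw 1 = ⊥ := by
  rw [eq_bot_iff]
  exact XS_le.2 fun r hr => absurd (by simpa using hr.1) hr.2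

theorem Rep.conj_Uw {n : G} {w : W} (h : Γ.Rep n w) {u : G} (hu : u ∈ Γ.Uw w) :
    n * u * n⁻¹ ∈ Γ.V := h.conj_XS (fun _ hr => hr.2) hu

/-- Splitting off a simple root subgroup from a closed set of positive roots. -/
theorem split_simple {S : R → Prop} (hpos : ∀ r, S r → Φ.Pos r)
    (hcl : ∀ r s t, S r → S s → Φ.Cone r s t → S t) {i : B} (hi : S (Φ.simple i)) {u : G}
    (hu : u ∈ XS Γ.X S) :
    ∃ u1 ∈ XS Γ.X (fun r => S r ∧ r ≠ Φ.simple i), ∃ x ∈ Γ.X (Φ.simple i), u = u1 * x := by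
  have hn : XS Γ.X (fun r => r = Φ.simple i) ≤
      Subgroup.normalizer (XS Γ.X (fun r => S r ∧ r ≠ Φ.simple i) : Set G) := by
    refine Γ.XS_le_normalizer fun r s hr hs => Or.inr ⟨?_, fun t ht => ?_⟩
    · rintro rfl
      exact Φ.not_pos_neg_simple i (hr ▸ hpos _ hs.1)
    · subst hr
      exact ⟨hcl _ _ _ hi hs.1 ht, ht.ne_simple Φ (hpos _ hi) (hpos _ hs.1) hs.2⟩
  have hle : XS Γ.X S ≤ XS Γ.X (fun r => r = Φ.simple i) ⊔ XS Γ.X (fun r => S r ∧ r ≠ Φ.simple i) :=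
    XS_le.2 fun r hr => by
      by_cases h : r = Φ.simple i
      · exact le_sup_of_le_left (le_XS h)
      · exact le_sup_of_le_right (le_XS ⟨hr, h⟩)
  obtain ⟨b, hb, a, ha, e⟩ := mem_sup_of_le_normalizer' hn (hle hu)
  exact ⟨b, hb, a, (XS_le.2 fun r hr => by rw [hr]) ha, e⟩

theorem split_UJ {J : Set B} {i : B} (hi : i ∈ J) {n : G} (hn : Γ.Rep n (Φ.cs.simple i)) {u : G}
    (hu : u ∈ Γ.UJ J) :
    ∃ u1, ∃ x ∈ Γ.X (Φ.simple i), u = u1 * x ∧ n * u1 * n⁻¹ ∈ Γ.UJ J := by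
  obtain ⟨u1, h1, x, hx, e⟩ := split_simple (Γ := Γ) (fun r hr => hr.1)
    (fun r s t hr hs h => ⟨h.pos Φ hr.1 hs.1, h.inSub Φ hr.2 hs.2⟩)
    ⟨Φ.pos_simple i, Φ.inSub_simple_iff.2 hi⟩ hu
  exact ⟨u1, x, hx, e, hn.conj_XS (fun r hr => ⟨Φ.pos_act_simple hr.1.1 hr.2,
    (Φ.inSub_act_iff (simple_mem_par _ hi)).2 hr.1.2⟩) h1⟩

theorem rank1' {i : B} {x : G} (hx : x ∈ Γ.X (Φ.neg (Φ.simple i))) (h1 : x ≠ 1) :
    ∃ a ∈ Γ.X (Φ.simple i), ∃ b ∈ Γ.X (Φ.simple i), ∃ n, Γ.Rep n (Φ.cs.simple i) ∧ x = a * n * b := by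
  obtain ⟨a, ha, b, hb, n, h2, h3⟩ := Γ.rank1 i x hx h1
  exact ⟨a, ha, b, hb, n, ⟨n.2, h2⟩, h3⟩

/-- The double coset rule, relative to a Levi subgroup. -/
theorem bn_step {J : Set B} {i : B} (hi : i ∈ J) {s : G} (hs : Γ.Rep s (Φ.cs.simple i)) {w : W}
    (hw : w ∈ par Φ.cs J) {n : G} (hn : Γ.Rep n w) {u : G} (hu : u ∈ Γ.UJ J) :
    (∃ a ∈ Γ.UJ J, ∃ b ∈ Γ.UJ J, s * u * n = a * (s * n) * b) ∨
      ∃ a ∈ Γ.UJ J, ∃ b ∈ Γ.UJ J, ∃ m, Γ.Rep m w ∧ s * u * n = a * m * b := by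
  obtain ⟨u1, x, hx, rfl, h1⟩ := split_UJ hi hs hu
  have hsub : ∀ v ∈ par Φ.cs J, Φ.InSub J (Φ.act v (Φ.simple i)) := fun v hv =>
    (Φ.inSub_act_iff hv).2 (Φ.inSub_simple_iff.2 hi)
  by_cases hp : Φ.Pos (Φ.act w⁻¹ (Φ.simple i))
  · exact Or.inl ⟨_, h1, _, mem_UJ hp (hsub _ (Subgroup.inv_mem _ hw)) (hn.conj' hx), by group⟩
  · have hy := hs.conj hx
    rw [Φ.act_simple_self] at hy
    by_cases h0 : s * x * s⁻¹ = 1
    · refine Or.inl ⟨_, h1, 1, Subgroup.one_mem _, ?_⟩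
      calc s * (u1 * x) * n = s * u1 * s⁻¹ * (s * x * s⁻¹) * (s * n) := by group
        _ = _ := by rw [h0]; group
    · obtain ⟨a, ha, b, hb, m, hm, e⟩ := rank1' hy h0
      have hsn := hs.mul hn
      have hp' : Φ.Pos (Φ.act (Φ.cs.simple i * w)⁻¹ (Φ.simple i)) := by
        rwa [mul_inv_rev, inv_simple, Φ.act_mul, Φ.act_simple_self, Φ.act_neg, Φ.pos_neg_iff]
      refine Or.inr ⟨s * u1 * s⁻¹ * a, Subgroup.mul_mem _ h1
        (mem_UJ (Φ.pos_simple i) (Φ.inSub_simple_iff.2 hi) ha), _,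
        mem_UJ hp' (hsub _ (Subgroup.inv_mem _ (Subgroup.mul_mem _ (simple_mem_par _ hi) hw)))
          (hsn.conj' hb), m * (s * n), by simpa using hm.mul hsn, ?_⟩
      calc s * (u1 * x) * n = s * u1 * s⁻¹ * (s * x * s⁻¹) * (s * n) := by group
        _ = _ := by rw [e]; group

theorem rep_mem_L {J : Set B} {w : W} (hw : w ∈ par Φ.cs J) {n : G} (hn : Γ.Rep n w) :
    n ∈ Γ.L J := by
  revert n
  refine par_induction_right Φ.cs (P := fun w => ∀ {n}, Γ.Rep n w → n ∈ Γ.L J) ?_ ?_ hw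
  · intro n hn
    exact Subgroup.mem_sup_right (rep_one_iff.1 hn)
  · intro w _ j hj ih n hn
    obtain ⟨m, hm, hm'⟩ := Γ.N_le j
    have hm1 : Γ.Rep (m : G) (Φ.cs.simple j) := ⟨m.2, hm⟩
    have hm2 : (m : G) ∈ Γ.L J := by
      refine (sup_le (sup_le ?_ ?_) le_sup_right : _ ≤ Γ.L J) hm'
      · exact (le_XS (Φ.inSub_simple_iff.2 hj)).trans le_sup_left
      · exact (le_XS (Φ.inSub_neg_iff.2 (Φ.inSub_simple_iff.2 hj))).trans le_sup_left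
    have := ih (n := n * (m : G)⁻¹) (by simpa using hn.mul hm1.inv)
    simpa using (Γ.L J).mul_mem this hm2

theorem exists_dc_L [Fintype R] {J : Set B} {g : G} (hg : g ∈ Γ.L J) :
    ∃ w ∈ par Φ.cs J, ∃ n, Γ.Rep n w ∧ ∃ a ∈ Γ.UJ J, ∃ b ∈ Γ.UJ J, g = a * n * b := by
  let Z : G → Prop := fun g =>
    ∃ w ∈ par Φ.cs J, ∃ n, Γ.Rep n w ∧ ∃ a ∈ Γ.UJ J, ∃ b ∈ Γ.UJ J, g = a * n * b
  -- the elements preserving `Z` under left multiplication form a submonoid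
  let K : G → Prop := fun k => ∀ g, Z g → Z (k * g)
  have Kmul : ∀ k k', K k → K k' → K (k * k') := fun k k' h h' g hg => by
    rw [mul_assoc]; exact h _ (h' _ hg)
  have KU : ∀ u ∈ Γ.UJ J, K u := by
    rintro u hu g ⟨w, hw, n, hn, a, ha, b, hb, rfl⟩
    exact ⟨w, hw, n, hn, u * a, Subgroup.mul_mem _ hu ha, b, hb, by group⟩
  have KH : ∀ h ∈ Γ.H, K h := by
    rintro h hh g ⟨w, hw, n, hn, a, ha, b, hb, rfl⟩
    exact ⟨w, hw, h * n, hn.H_mul hh, h * a * h⁻¹, H_conj_XS hh ha, b, hb, by group⟩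
  have KS : ∀ j ∈ J, ∀ s, Γ.Rep s (Φ.cs.simple j) → K s := by
    rintro j hj s hs g ⟨w, hw, n, hn, a, ha, b, hb, rfl⟩
    have e : s * (a * n * b) = (s * a * n) * b := by group
    rw [e]
    rcases bn_step hj hs hw hn ha with ⟨a', ha', b', hb', e⟩ | ⟨a', ha', b', hb', m, hm, e⟩
    · exact ⟨_, Subgroup.mul_mem _ (simple_mem_par _ hj) hw, _, hs.mul hn, a', ha', b' * b,
        Subgroup.mul_mem _ hb' hb, by rw [e]; group⟩
    · exact ⟨w, hw, m, hm, a', ha', b' * b, Subgroup.mul_mem _ hb' hb, by rw [e]; group⟩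
  have KN : ∀ v ∈ par Φ.cs J, ∀ n, Γ.Rep n v → K n := by
    intro v hv
    refine par_induction_right Φ.cs (P := fun v => ∀ n, Γ.Rep n v → K n) ?_ ?_ hv
    · intro n hn
      exact KH n (rep_one_iff.1 hn)
    · intro w _ j hj ih n hn
      obtain ⟨s, hs⟩ := Γ.exists_rep (Φ.cs.simple j)
      have := Kmul _ _ (ih (n * s⁻¹) (by simpa using hn.mul hs.inv)) (KS j hj s hs)
      simpa using this
  have KX : ∀ r, Φ.InSub J r → ∀ x ∈ Γ.X r, K x := by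
    intro r hr x hx
    obtain ⟨v, hv, j, hj, rfl⟩ := Φ.exists_simple_of_inSub hr
    obtain ⟨n, hn⟩ := Γ.exists_rep v
    have h1 := hn.conj' hx
    rw [Φ.act_inv_act] at h1
    have := Kmul _ _ (Kmul _ _ (KN v hv n hn)
      (KU _ (mem_UJ (Φ.pos_simple j) (Φ.inSub_simple_iff.2 hj) h1))) (KN _ (Subgroup.inv_mem _ hv) _ hn.inv)
    simpa [mul_assoc] using this
  have KXS : ∀ x ∈ XS Γ.X (Φ.InSub J), K x := by
    intro x hx
    exact XS_induction hx KX (fun g hg => by simpa using hg) Kmul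
  rw [L, sup_comm] at hg
  obtain ⟨h, hh, x, hx, rfl⟩ := mem_sup_of_le_normalizer (Γ.H_le_normalizer _) hg
  have := Kmul _ _ (KH h hh) (KXS x hx) 1 ⟨1, Subgroup.one_mem _, 1,
    rep_one_iff.2 (Subgroup.one_mem _), 1, Subgroup.one_mem _, 1, Subgroup.one_mem _, by simp⟩
  simpa using this

theorem conj_Uw_mul {w v : W} (h : Φ.cs.length (w * v) = Φ.cs.length w + Φ.cs.length v) {n : G}
    (hn : Γ.Rep n v) {u : G} (hu : u ∈ Γ.Uw w) : n⁻¹ * u * n ∈ Γ.Uw (w * v) :=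
  hn.conj_XS' (fun r hr => ⟨Φ.pos_inv_of_length_add h hr.1 hr.2, by
    rw [Φ.act_mul, Φ.act_act_inv]; exact hr.2⟩) hu

theorem Uw_le_mul {w v : W} (h : Φ.cs.length (w * v) = Φ.cs.length w + Φ.cs.length v) :
    Γ.Uw v ≤ Γ.Uw (w * v) :=
  XS_mono fun r hr => ⟨hr.1, Φ.not_pos_of_length_add h r hr.1 hr.2⟩

theorem reduce_right {J : Set B} {w : W} (hw : w ∈ par Φ.cs J) :
    ∀ {n : G}, Γ.Rep n w → ∀ b ∈ Γ.UJ J, ∃ a ∈ Γ.UJ J, ∃ u ∈ Γ.Uw w, n * b = a * n * u := by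
  refine Φ.h.par_induction_length Φ.cs (P := fun w => ∀ {n : G}, Γ.Rep n w → ∀ b ∈ Γ.UJ J,
    ∃ a ∈ Γ.UJ J, ∃ u ∈ Γ.Uw w, n * b = a * n * u) ?_ ?_ hw
  · intro n hn b hb
    exact ⟨n * b * n⁻¹, H_conj_XS (rep_one_iff.1 hn) hb, 1, Subgroup.one_mem _, by group⟩
  · intro w _ i hi hlt ih n hn b hb
    obtain ⟨s, hs⟩ := Γ.exists_rep (Φ.cs.simple i)
    obtain ⟨u1, x, hx, rfl, h1⟩ := split_UJ hi hs hb
    obtain ⟨a, ha, u, hu, e⟩ := ih (n := n * s⁻¹) (by simpa using hn.mul hs.inv) _ h1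
    have hl : Φ.cs.length (w * Φ.cs.simple i) = Φ.cs.length w + Φ.cs.length (Φ.cs.simple i) := by
      have := Φ.cs.length_mul_simple w i
      rw [length_simple]; omega
    refine ⟨a, ha, s⁻¹ * u * s * x, Subgroup.mul_mem _ (conj_Uw_mul hl hs hu)
      (Uw_le_mul hl (mem_Uw (Φ.pos_simple i) ?_ hx)), ?_⟩
    · rw [Φ.act_simple_self]; exact Φ.not_pos_neg_simple i
    · calc n * (u1 * x) = n * s⁻¹ * (s * u1 * s⁻¹) * s * x := by group
        _ = _ := by rw [e]; group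

/-- Bruhat normal form (existence) in a Levi subgroup. -/
theorem bruhat_L [Fintype R] {J : Set B} {g : G} (hg : g ∈ Γ.L J) :
    ∃ w ∈ par Φ.cs J, ∃ n, Γ.Rep n w ∧ ∃ a ∈ Γ.UJ J, ∃ u ∈ Γ.Uw w, g = a * n * u := by
  obtain ⟨w, hw, n, hn, a, ha, b, hb, rfl⟩ := exists_dc_L hg
  obtain ⟨a', ha', u, hu, e⟩ := reduce_right hw hn b hb
  exact ⟨w, hw, n, hn, a * a', Subgroup.mul_mem _ ha ha', u, hu, by rw [mul_assoc, e]; group⟩

variable (Γ) in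
/-- Bruhat normal form (existence). -/
theorem bruhat [Fintype R] (g : G) :
    ∃ w n, Γ.Rep n w ∧ ∃ a ∈ Γ.U, ∃ u ∈ Γ.Uw w, g = a * n * u := by
  obtain ⟨w, -, n, hn, a, ha, u, hu, e⟩ := bruhat_L (Γ := Γ) (J := Set.univ) (g := g)
    (by rw [L_univ]; trivial)
  exact ⟨w, n, hn, a, UJ_le_U _ ha, u, hu, e⟩

/-- `U_{wv} = (n_v⁻¹ U_w n_v) U_v` when lengths add. -/
theorem split_Uw {w v : W} (h : Φ.cs.length (w * v) = Φ.cs.length w + Φ.cs.length v) :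
    ∀ {n : G}, Γ.Rep n v → ∀ u ∈ Γ.Uw (w * v), ∃ a ∈ Γ.Uw w, ∃ b ∈ Γ.Uw v, u = n⁻¹ * a * n * b := by
  induction hk : Φ.cs.length v using Nat.strong_induction_on generalizing v with
  | _ k ih =>
  intro n hn u hu
  by_cases h0 : v = 1
  · subst h0
    rw [mul_one] at hu
    exact ⟨n * u * n⁻¹, H_conj_XS (rep_one_iff.1 hn) hu, 1, Subgroup.one_mem _, by group⟩
  obtain ⟨i, hi⟩ := Φ.cs.exists_rightDescent_of_ne_one h0
  have hi' := Φ.cs.isRightDescent_iff.1 hi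
  have h3 := Φ.cs.length_mul_le w (v * Φ.cs.simple i)
  have h4 := Φ.cs.length_mul_simple (w * v) i
  rw [← mul_assoc] at h3
  have h5 : ¬ Φ.Pos (Φ.act (w * v) (Φ.simple i)) := by rw [← Φ.lt_iff_not_pos]; omega
  obtain ⟨s, hs⟩ := Γ.exists_rep (Φ.cs.simple i)
  obtain ⟨u1, h1, x, hx, rfl⟩ := split_simple (Γ := Γ) (fun r hr => hr.1)
    (fun r s t hr hs h => ⟨h.pos Φ hr.1 hs.1, (h.act Φ _).not_pos Φ hr.2 hs.2⟩)
    ⟨Φ.pos_simple i, h5⟩ hu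
  have h6 : s * u1 * s⁻¹ ∈ Γ.Uw (w * (v * Φ.cs.simple i)) :=
    hs.conj_XS (fun r hr => ⟨Φ.pos_act_simple hr.1.1 hr.2, by
      rw [← mul_assoc, Φ.act_mul, Φ.act_simple_simple]; exact hr.1.2⟩) h1
  obtain ⟨a, ha, b, hb, e⟩ := ih _ (by omega) (v := v * Φ.cs.simple i) (by rw [← mul_assoc]; omega)
    rfl (n := n * s⁻¹) (by simpa using hn.mul hs.inv) _ h6
  have hl : Φ.cs.length (v * Φ.cs.simple i * Φ.cs.simple i) =
      Φ.cs.length (v * Φ.cs.simple i) + Φ.cs.length (Φ.cs.simple i) := by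
    rw [length_simple, simple_mul_simple_cancel_right]; omega
  have h7 := conj_Uw_mul hl hs hb
  rw [simple_mul_simple_cancel_right] at h7
  refine ⟨a, ha, s⁻¹ * b * s * x, Subgroup.mul_mem _ h7 (mem_Uw (Φ.pos_simple i) ?_ hx), ?_⟩
  · rw [← Φ.lt_iff_not_pos]; omega
  · calc u1 * x = s⁻¹ * (s * u1 * s⁻¹) * s * x := by group
      _ = _ := by rw [e]; group

theorem L_le_normalizer_Rad (J : Set B) : Γ.L J ≤ Subgroup.normalizer (Γ.Rad J : Set G) := by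
  refine sup_le (Γ.XS_le_normalizer fun r s hr hs => Or.inr ⟨?_, fun t ht =>
    ht.pos_not_inSub Φ (Or.inr hr) hs.1 hs.2⟩) (Γ.H_le_normalizer _)
  rintro rfl
  exact hs.2 (Φ.inSub_neg_iff.2 hr)

theorem U_le_normalizer_Rad (J : Set B) : Γ.U ≤ Subgroup.normalizer (Γ.Rad J : Set G) := by
  refine Γ.XS_le_normalizer fun r s hr hs => Or.inr ⟨?_, fun t ht =>
    ht.pos_not_inSub Φ (Or.inl hr) hs.1 hs.2⟩
  rintro rfl
  exact (Φ.pos_neg_iff r).1 hs.1 hr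

theorem split_U (J : Set B) {u : G} (hu : u ∈ Γ.U) :
    ∃ a ∈ Γ.Rad J, ∃ b ∈ Γ.UJ J, u = a * b := by
  have hle : Γ.U ≤ Γ.UJ J ⊔ Γ.Rad J := XS_le.2 fun r hr => by
    by_cases h : Φ.InSub J r
    · exact le_sup_of_le_left fun _ => mem_UJ hr h
    · exact le_sup_of_le_right fun _ => mem_Rad hr h
  exact mem_sup_of_le_normalizer' ((UJ_le_U J).trans (U_le_normalizer_Rad J)) (hle hu)

end RGD0

/-- Root group data. -/
structure RGD (Φ : RS B R W) (G : Type*) [Group G] extends RGD0 Φ G where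
  BV : ∀ g ∈ toRGD0.Bor, g ∈ toRGD0.V → g = 1
  nontriv : ∀ i, X (Φ.simple i) ≠ ⊥

namespace RGD

open RGD0

variable {Φ : RS B R W} {G : Type*} [Group G] {Γ : RGD Φ G}

theorem exists_ne_one [Fintype R] (r : R) : ∃ x ∈ Γ.X r, x ≠ 1 := by
  obtain ⟨v, i, rfl⟩ := Φ.exists_simple r
  obtain ⟨n, hn⟩ := Γ.exists_rep v
  obtain ⟨⟨x, hx⟩, h1⟩ := (Subgroup.ne_bot_iff_exists_ne_one).1 (Γ.nontriv i)
  refine ⟨_, hn.conj hx, fun h => h1 (Subtype.ext ?_)⟩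
  simpa [mul_inv_eq_one] using h

theorem eq_one_of_rep_mem_Bor {n : G} {w : W} (hn : Γ.Rep n w) (hB : n ∈ Γ.Bor) : w = 1 := by
  by_contra hw
  obtain ⟨i, hi⟩ := Φ.exists_not_pos hw
  obtain ⟨⟨x, hx⟩, h1⟩ := (Subgroup.ne_bot_iff_exists_ne_one).1 (Γ.nontriv i)
  have := Γ.BV _ (Subgroup.mul_mem _ (Subgroup.mul_mem _ hB (U_le_Bor (mem_U (Φ.pos_simple i) hx)))
    (Subgroup.inv_mem _ hB)) (mem_V hi (hn.conj hx))
  exact h1 (Subtype.ext (by simpa [mul_inv_eq_one] using this))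

theorem mem_H_of_mem_Bor {n : G} (hn : n ∈ Γ.N) (hB : n ∈ Γ.Bor) : n ∈ Γ.H := by
  obtain ⟨w, hw⟩ := exists_rep_of_mem hn
  rw [eq_one_of_rep_mem_Bor hw hB] at hw
  exact rep_one_iff.1 hw

theorem Bor_inf_N : Γ.Bor ⊓ Γ.N = Γ.H :=
  le_antisymm (fun _ h => mem_H_of_mem_Bor h.2 h.1) (le_inf H_le_Bor Γ.H_le)

theorem eq_one_of_U_H [Fintype R] {u : G} (hu : u ∈ Γ.U) (hH : u ∈ Γ.H) : u = 1 := by
  obtain ⟨w, -, hw⟩ := Φ.exists_w0
  obtain ⟨n, hn⟩ := Γ.exists_rep w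
  have := Γ.BV _ (H_le_Bor (hn.conj_H hH)) (hn.conj_XS hw hu)
  simpa [mul_inv_eq_one] using this

theorem eq_one_of_V_conj [Fintype R] {n : G} {w : W} (hn : Γ.Rep n w) {u : G} (hu : u ∈ Γ.Uw w)
    (hB : n * u * n⁻¹ ∈ Γ.Bor) : u = 1 := by
  have := Γ.BV _ hB (hn.conj_Uw hu)
  simpa [mul_inv_eq_one] using this

variable (Γ) in
/-- The (B, N)-pair of root group data. -/
def toBN [Fintype R] (ns : B → G) (hns : ∀ i, Γ.Rep (ns i) (Φ.cs.simple i)) : Cfsg.BNPair G where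
  B := Γ.Bor
  N := Γ.N
  S := Set.range ns
  sup_eq_top := by
    rw [eq_top_iff]
    intro g _
    obtain ⟨w, n, hn, a, ha, u, hu, rfl⟩ := Γ.bruhat g
    exact Subgroup.mul_mem _ (Subgroup.mul_mem _ (Subgroup.mem_sup_left (U_le_Bor ha))
      (Subgroup.mem_sup_right hn.mem)) (Subgroup.mem_sup_left (U_le_Bor (Uw_le_U _ hu)))
  conj_mem := fun n hn t ht => by
    obtain ⟨w, hw⟩ := exists_rep_of_mem hn
    exact H_le_Bor (hw.conj_H (mem_H_of_mem_Bor ht.2 ht.1))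
  subset := by rintro _ ⟨i, rfl⟩; exact (hns i).mem
  sq_mem := by
    rintro _ ⟨i, rfl⟩
    exact H_le_Bor (rep_one_iff.1 (by simpa using (hns i).mul (hns i)))
  inj := by
    rintro _ ⟨i, rfl⟩ _ ⟨j, rfl⟩ h
    have h1 := eq_one_of_rep_mem_Bor ((hns i).inv.mul (hns j)) h
    rw [inv_mul_eq_one] at h1
    by_contra hne
    have hij : Φ.simple i ≠ Φ.simple j := fun e => hne (by rw [Φ.simple_inj e])
    have := Φ.pos_act_simple (Φ.pos_simple i) hij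
    rw [← h1, Φ.act_simple_self] at this
    exact Φ.not_pos_neg_simple i this
  closure_sup := by
    rw [Bor_inf_N]
    refine le_antisymm (sup_le ((Subgroup.closure_le _).2 ?_) Γ.H_le) fun n hn => ?_
    · rintro _ ⟨i, rfl⟩; exact (hns i).mem
    · obtain ⟨w, hw⟩ := exists_rep_of_mem hn
      clear hn
      induction w using Φ.cs.simple_induction_right generalizing n with
      | one => exact Subgroup.mem_sup_right (rep_one_iff.1 hw)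
      | mul_simple_right w i ih =>
        have := Subgroup.mul_mem _ (ih (n := n * (ns i)⁻¹) (by simpa using hw.mul (hns i).inv))
          (Subgroup.mem_sup_left (Subgroup.subset_closure ⟨i, rfl⟩))
        simpa using this
  mul_mem_union := by
    rintro _ ⟨i, rfl⟩ n hn b hb
    obtain ⟨w, hw⟩ := exists_rep_of_mem hn
    obtain ⟨u, hu, h, hh, rfl⟩ := mem_Bor.1 hb
    rw [← UJ_univ] at hu
    have hh' : n⁻¹ * h * n ∈ Γ.H := by simpa using hw.inv.conj_H hh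
    simp only [Set.mem_union, DoubleCoset.mem_doubleCoset, SetLike.mem_coe]
    rcases bn_step (Set.mem_univ i) (hns i) (by rw [par_univ]; trivial) hw hu with
      ⟨a, ha, b, hb, e⟩ | ⟨a, ha, b, hb, m, hm, e⟩
    · refine Or.inl ⟨a, U_le_Bor (UJ_le_U _ ha), b * (n⁻¹ * h * n),
        Subgroup.mul_mem _ (U_le_Bor (UJ_le_U _ hb)) (H_le_Bor hh'), ?_⟩
      rw [← mul_assoc (a * _), ← e]; group
    · refine Or.inr ⟨a, U_le_Bor (UJ_le_U _ ha), n⁻¹ * m * b * (n⁻¹ * h * n),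
        Subgroup.mul_mem _ (Subgroup.mul_mem _ (H_le_Bor (hw.inv_mul_mem hm))
          (U_le_Bor (UJ_le_U _ hb))) (H_le_Bor hh'), ?_⟩
      calc ns i * (u * h) * n = (ns i * u * n) * (n⁻¹ * h * n) := by group
        _ = _ := by rw [e]; group
  conj_ne := by
    rintro _ ⟨i, rfl⟩ h
    obtain ⟨⟨x, hx⟩, h1⟩ := (Subgroup.ne_bot_iff_exists_ne_one).1 (Γ.nontriv i)
    have h2 : ns i * ns i ∈ Γ.H := rep_one_iff.1 (by simpa using (hns i).mul (hns i))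
    have h3 : ns i * (x * (ns i * ns i)⁻¹) * ns i ∈ (Γ.Bor : Set G) := by
      rw [← h]
      exact ⟨_, Subgroup.mul_mem _ (U_le_Bor (mem_U (Φ.pos_simple i) hx))
        (Subgroup.inv_mem _ (H_le_Bor h2)), rfl⟩
    have h4 := (hns i).conj hx
    rw [Φ.act_simple_self] at h4
    have := Γ.BV (ns i * x * (ns i)⁻¹) (by simpa [mul_assoc] using h3)
      (mem_V (Φ.not_pos_neg_simple i) h4)
    exact h1 (Subtype.ext (by simpa [mul_inv_eq_one] using this))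

theorem w_unique [Fintype R] {n n' b b' : G} {w w' : W} (hn : Γ.Rep n w) (hn' : Γ.Rep n' w')
    (hb : b ∈ Γ.Bor) (hb' : b' ∈ Γ.Bor) (e : n = b * n' * b') : w = w' := by
  choose ns hns using fun i => Γ.exists_rep (Φ.cs.simple i)
  have := dc_unique (P := Γ.toBN ns hns) hn.mem hn'.mem ⟨b, hb, b', hb', e⟩
  exact inv_mul_eq_one.1 (eq_one_of_rep_mem_Bor (hn.inv.mul hn') this)

/-- Uniqueness of the Bruhat normal form. -/
theorem bruhat_unique [Fintype R] {n n' a a' u u' : G} {w w' : W} (hn : Γ.Rep n w)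
    (hn' : Γ.Rep n' w') (ha : a ∈ Γ.U) (ha' : a' ∈ Γ.U) (hu : u ∈ Γ.Uw w) (hu' : u' ∈ Γ.Uw w')
    (e : a * n * u = a' * n' * u') : w = w' ∧ a = a' ∧ n = n' ∧ u = u' := by
  have hw : w = w' := w_unique hn hn' (b := a⁻¹ * a') (b' := u' * u⁻¹)
    (U_le_Bor (Subgroup.mul_mem _ (Subgroup.inv_mem _ ha) ha'))
    (U_le_Bor (Subgroup.mul_mem _ (Uw_le_U _ hu') (Subgroup.inv_mem _ (Uw_le_U _ hu))))
    (by calc n = a⁻¹ * (a * n * u) * u⁻¹ := by group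
          _ = _ := by rw [e]; group)
  subst hw
  have h1 : u * u'⁻¹ = 1 := by
    refine eq_one_of_V_conj hn (Subgroup.mul_mem _ hu (Subgroup.inv_mem _ hu')) ?_
    have : n * (u * u'⁻¹) * n⁻¹ = a⁻¹ * a' * (n' * n⁻¹) := by
      calc n * (u * u'⁻¹) * n⁻¹ = a⁻¹ * (a * n * u) * u'⁻¹ * n⁻¹ := by group
        _ = _ := by rw [e]; group
    rw [this]
    exact Subgroup.mul_mem _ (U_le_Bor (Subgroup.mul_mem _ (Subgroup.inv_mem _ ha) ha'))
      (H_le_Bor (hn'.mul_inv_mem hn))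
  have h2 : u = u' := mul_inv_eq_one.1 h1
  subst h2
  have h3 : a * n = a' * n' := mul_right_cancel e
  have h4 : a'⁻¹ * a = 1 := by
    refine eq_one_of_U_H (Subgroup.mul_mem _ (Subgroup.inv_mem _ ha') ha) ?_
    have : a'⁻¹ * a = n' * n⁻¹ := by
      calc a'⁻¹ * a = a'⁻¹ * (a * n) * n⁻¹ := by group
        _ = _ := by rw [h3]; group
    rw [this]
    exact hn'.mul_inv_mem hn
  have h5 : a' = a := inv_mul_eq_one.1 h4
  subst h5
  exact ⟨rfl, rfl, mul_left_cancel h3, rfl⟩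

theorem split_Uw_unique [Fintype R] {w v : W} {n : G} (hn : Γ.Rep n v) {a a' b b' : G}
    (ha : a ∈ Γ.U) (ha' : a' ∈ Γ.U) (hb : b ∈ Γ.Uw v) (hb' : b' ∈ Γ.Uw v)
    (e : n⁻¹ * a * n * b = n⁻¹ * a' * n * b') : a = a' ∧ b = b' := by
  have := bruhat_unique hn hn ha ha' hb hb' (by
    calc a * n * b = n * (n⁻¹ * a * n * b) := by group
      _ = _ := by rw [e]; group)
  exact ⟨this.2.1, this.2.2.2⟩

theorem Rad_inf_L [Fintype R] {J : Set B} {g : G} (h1 : g ∈ Γ.Rad J) (h2 : g ∈ Γ.L J) : g = 1 := by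
  obtain ⟨w, hw, n, hn, a, ha, u, hu, e⟩ := bruhat_L h2
  have := bruhat_unique (rep_one_iff.2 Γ.H.one_mem) hn (Rad_le_U _ h1) (UJ_le_U _ ha)
    (Subgroup.one_mem _) hu (by simpa using e)
  obtain ⟨v, hv⟩ := Φ.exists_longest J
  obtain ⟨m, hm⟩ := Γ.exists_rep v
  rw [← this.2.1, ← Uw_longest hv] at ha
  exact eq_one_of_V_conj hm ha (U_le_Bor (Rad_le_U J
    (Subgroup.le_normalizer_iff.1 (L_le_normalizer_Rad J) m (rep_mem_L hv.1 hm) g h1)))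

theorem split_U_unique [Fintype R] {J : Set B} {a a' b b' : G} (ha : a ∈ Γ.Rad J)
    (ha' : a' ∈ Γ.Rad J) (hb : b ∈ Γ.L J) (hb' : b' ∈ Γ.L J) (e : a * b = a' * b') :
    a = a' ∧ b = b' := by
  have h1 : a'⁻¹ * a = 1 := by
    refine Rad_inf_L (Subgroup.mul_mem _ (Subgroup.inv_mem _ ha') ha) ?_
    have : a'⁻¹ * a = b' * b⁻¹ := by
      calc a'⁻¹ * a = a'⁻¹ * (a * b) * b⁻¹ := by group
        _ = _ := by rw [e]; group
    rw [this]
    exact Subgroup.mul_mem _ hb' (Subgroup.inv_mem _ hb)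
  have h2 : a' = a := inv_mul_eq_one.1 h1
  subst h2
  exact ⟨rfl, mul_left_cancel e⟩

end RGD

end CA.BN
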