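import Cfsg.Agent.Lib.BN.RGD

/-!
Fixed points of an endomorphism of root group data which permutes the simple root subgroups: the twisted
Bruhat decomposition, (B, N)-pair, order formula.
-/

set_option autoImplicit false
set_option linter.unusedSectionVars false
set_option maxHeartbeats 400000

namespace CA.BN

open CA.Weyl CoxeterSystem RGD0 RGD

variable {B R W : Type*} [Fintype B] [DecidableEq B] [Group W] [Fintype R]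
variable {Φ : RS B R W} {G : Type*} [Group G]

/-- An endomorphism of root group data inducing a diagram symmetry. -/
structure Tw0 (Γ : RGD Φ G) where
  σ : G →* G
  ρ : Equiv.Perm B
  τ : W ≃* W
  hτ : ∀ i, τ (Φ.cs.simple i) = Φ.cs.simple (ρ i)
  hX : ∀ i, ∀ x ∈ Γ.X (Φ.simple i), σ x ∈ Γ.X (Φ.simple (ρ i))
  hH : ∀ h ∈ Γ.H, σ h ∈ Γ.H
  hn : ∀ i, ∃ n, Γ.Rep n (Φ.cs.simple i) ∧ Γ.Rep (σ n) (Φ.cs.simple (ρ i))

namespace Tw0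

variable {Γ : RGD Φ G} (T : Tw0 Γ)

/-- The fixed points of `σ` in `K`. -/
def Fx (K : Subgroup G) : Subgroup G := K ⊓ T.σ.eqLocus (MonoidHom.id G)

theorem mem_Fx {K : Subgroup G} {g : G} : g ∈ T.Fx K ↔ g ∈ K ∧ T.σ g = g := Iff.rfl

theorem rep_σ {w : W} : ∀ {n : G}, Γ.Rep n w → Γ.Rep (T.σ n) (T.τ w) := by
  induction w using Φ.cs.simple_induction_right with
  | one => intro n hn; rw [map_one]; exact rep_one_iff.2 (T.hH n (rep_one_iff.1 hn))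
  | mul_simple_right w i ih =>
    intro n hn
    obtain ⟨s, hs, hs'⟩ := T.hn i
    have := (ih (n := n * s⁻¹) (by simpa using hn.mul hs.inv)).mul hs'
    rw [← map_mul, inv_mul_cancel_right] at this
    rwa [map_mul, T.hτ]

theorem σ_X {v : W} {i : B} {x : G} (hx : x ∈ Γ.X (Φ.act v (Φ.simple i))) :
    T.σ x ∈ Γ.X (Φ.act (T.τ v) (Φ.simple (T.ρ i))) := by
  obtain ⟨n, hn⟩ := Γ.exists_rep v
  have h1 := hn.conj' hx
  rw [Φ.act_inv_act] at h1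
  have := (T.rep_σ hn).conj (T.hX i _ h1)
  simpa [mul_assoc] using this

theorem pos_τ (v : W) (i : B) :
    Φ.Pos (Φ.act (T.τ v) (Φ.simple (T.ρ i))) ↔ Φ.Pos (Φ.act v (Φ.simple i)) := by
  rw [← Φ.lt_iff_pos, ← Φ.lt_iff_pos, ← T.hτ, ← map_mul, length_map _ T.hτ, length_map _ T.hτ]

theorem pos_τ' (w v : W) (i : B) : Φ.Pos (Φ.act (T.τ w) (Φ.act (T.τ v) (Φ.simple (T.ρ i)))) ↔
    Φ.Pos (Φ.act w (Φ.act v (Φ.simple i))) := by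
  rw [← Φ.act_mul, ← Φ.act_mul, ← map_mul, pos_τ]

theorem σ_XS {S S' : R → Prop}
    (h : ∀ v i, S (Φ.act v (Φ.simple i)) → S' (Φ.act (T.τ v) (Φ.simple (T.ρ i)))) {x : G}
    (hx : x ∈ XS Γ.X S) : T.σ x ∈ XS Γ.X S' := by
  refine XS_map_mem T.σ (fun r hr y hy => ?_) hx
  obtain ⟨v, i, rfl⟩ := Φ.exists_simple r
  exact le_XS (h v i hr) (T.σ_X hy)

theorem σ_U {x : G} (hx : x ∈ Γ.U) : T.σ x ∈ Γ.U := T.σ_XS (fun v i h => (T.pos_τ v i).2 h) hx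

theorem σ_V {x : G} (hx : x ∈ Γ.V) : T.σ x ∈ Γ.V :=
  T.σ_XS (fun v i h => fun h' => h ((T.pos_τ v i).1 h')) hx

theorem σ_Uw {w : W} {x : G} (hx : x ∈ Γ.Uw w) : T.σ x ∈ Γ.Uw (T.τ w) :=
  T.σ_XS (fun v i h => ⟨(T.pos_τ v i).2 h.1, fun h' => h.2 ((T.pos_τ' w v i).1 h')⟩) hx

theorem longest_fixed {J : Set B} (hJ : ∀ j, T.ρ j ∈ J ↔ j ∈ J) {w : W} (hw : IsLongest Φ.cs J w) :
    T.τ w = w := Φ.h.longest_fixed T.hτ hJ hw

theorem σ_UJ {J : Set B} (hJ : ∀ j, T.ρ j ∈ J ↔ j ∈ J) {x : G} (hx : x ∈ Γ.UJ J) :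
    T.σ x ∈ Γ.UJ J := by
  obtain ⟨w, hw⟩ := Φ.exists_longest J
  rw [← Uw_longest hw] at hx ⊢
  have := T.σ_Uw hx
  rwa [T.longest_fixed hJ hw] at this

theorem σ_Rad {J : Set B} (hJ : ∀ j, T.ρ j ∈ J ↔ j ∈ J) {x : G} (hx : x ∈ Γ.Rad J) :
    T.σ x ∈ Γ.Rad J := by
  obtain ⟨w, hw⟩ := Φ.exists_longest J
  refine T.σ_XS (fun v i h => ⟨(T.pos_τ v i).2 h.1, ?_⟩) hx
  rw [← Φ.longest_iff hw ((T.pos_τ v i).2 h.1), not_not]
  conv => enter [2, 1, 2]; rw [← T.longest_fixed hJ hw]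
  rw [pos_τ']
  have := h.2
  rwa [← Φ.longest_iff hw h.1, not_not] at this

theorem σ_Bor {x : G} (hx : x ∈ Γ.Bor) : T.σ x ∈ Γ.Bor := by
  obtain ⟨u, hu, h, hh, rfl⟩ := mem_Bor.1 hx
  rw [map_mul]
  exact mem_Bor.2 ⟨_, T.σ_U hu, _, T.hH h hh, rfl⟩

theorem fixed_bruhat {w : W} {n a u : G} (hn : Γ.Rep n w) (ha : a ∈ Γ.U) (hu : u ∈ Γ.Uw w)
    (h : T.σ (a * n * u) = a * n * u) : T.τ w = w ∧ T.σ a = a ∧ T.σ n = n ∧ T.σ u = u := by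
  rw [map_mul, map_mul] at h
  exact bruhat_unique (T.rep_σ hn) hn (T.σ_U ha) ha (T.σ_Uw hu) hu h

theorem fixed_UH {u h : G} (hu : u ∈ Γ.U) (hh : h ∈ Γ.H) (e : T.σ (u * h) = u * h) :
    T.σ u = u ∧ T.σ h = h := by
  have := T.fixed_bruhat (rep_one_iff.2 hh) hu (Subgroup.one_mem _) (by simpa using e)
  exact ⟨this.2.1, this.2.2.1⟩

theorem fixed_split_Uw {w v : W} (hw : T.τ w = w) (hv : T.τ v = v) {n a b : G} (hn : Γ.Rep n v)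
    (hn' : T.σ n = n) (ha : a ∈ Γ.Uw w) (hb : b ∈ Γ.Uw v)
    (h : T.σ (n⁻¹ * a * n * b) = n⁻¹ * a * n * b) : T.σ a = a ∧ T.σ b = b := by
  rw [map_mul, map_mul, map_mul, map_inv, hn'] at h
  exact split_Uw_unique (w := 1) hn (T.σ_U (Uw_le_U _ ha)) (Uw_le_U _ ha) (hv ▸ T.σ_Uw hb) hb h

theorem card_Fx_Uw_mul {w v : W} (h : Φ.cs.length (w * v) = Φ.cs.length w + Φ.cs.length v)
    (hw : T.τ w = w) (hv : T.τ v = v) {n : G} (hn : Γ.Rep n v) (hn' : T.σ n = n) :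
    Nat.card (T.Fx (Γ.Uw (w * v))) = Nat.card (T.Fx (Γ.Uw w)) * Nat.card (T.Fx (Γ.Uw v)) := by
  rw [← Nat.card_prod]
  symm
  refine Nat.card_eq_of_bijective (fun p => ⟨n⁻¹ * p.1 * n * p.2,
    Subgroup.mul_mem _ (conj_Uw_mul h hn p.1.2.1) (Uw_le_mul h p.2.2.1), ?_⟩) ⟨?_, ?_⟩
  · have h1 : T.σ p.1 = p.1 := p.1.2.2
    have h2 : T.σ p.2 = p.2 := p.2.2.2
    change T.σ _ = _
    simp [h1, h2, hn']
  · rintro ⟨a, b⟩ ⟨a', b'⟩ e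
    have := split_Uw_unique (w := 1) hn (Uw_le_U _ a.2.1) (Uw_le_U _ a'.2.1) b.2.1 b'.2.1
      (congrArg Subtype.val e)
    exact Prod.ext (Subtype.ext this.1) (Subtype.ext this.2)
  · rintro ⟨u, hu, hu'⟩
    obtain ⟨a, ha, b, hb, rfl⟩ := split_Uw h hn u hu
    have := T.fixed_split_Uw hw hv hn hn' ha hb hu'
    exact ⟨(⟨a, ha, this.1⟩, ⟨b, hb, this.2⟩), rfl⟩

/-- The rank one step: a non-trivial fixed element of `V_I` lies in the big cell of `L_I`. -/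
theorem rank1 {I : Set B} (horb : ∀ i ∈ I, ∀ i' ∈ I, ∃ n : ℕ, (T.ρ ^ n) i = i') {w : W}
    (hw : IsLongest Φ.cs I w) {x : G} (hx : x ∈ Γ.VJ I) (hx' : T.σ x = x) (h1 : x ≠ 1) :
    ∃ a ∈ Γ.UJ I, ∃ b ∈ Γ.UJ I, ∃ m, Γ.Rep m w ∧ T.σ a = a ∧ T.σ b = b ∧ T.σ m = m ∧
      x = a * m * b := by
  obtain ⟨v, hv, m, hm, a, ha, b, hb, rfl⟩ := bruhat_L (VJ_le_L I hx)
  obtain ⟨h2, h3, h4, h5⟩ := T.fixed_bruhat hm (UJ_le_U _ ha) hb hx'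
  have hv1 : v ≠ 1 := by
    rintro rfl
    exact h1 (Γ.BV _ (Subgroup.mul_mem _ (Subgroup.mul_mem _ (U_le_Bor (UJ_le_U _ ha))
      (H_le_Bor (rep_one_iff.1 hm))) (U_le_Bor (Uw_le_U _ hb))) (VJ_le_V _ hx))
  obtain ⟨j, hj⟩ := Φ.cs.exists_rightDescent_of_ne_one hv1
  have hjI := Φ.h.mem_of_descent Φ.cs hv hj
  have : v = w := Φ.h.longest_unique Φ.cs ⟨hv, fun i hi => by
    obtain ⟨k, hk⟩ := horb j hjI i hi
    rw [← hk, descent_pow T.hτ h2]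
    exact hj⟩ hw
  subst this
  exact ⟨a, ha, b, Uw_le_UJ hv hb, m, hm, h3, h5, h4, rfl⟩

end Tw0

/-- A twisted group inside root group data. -/
structure Tw (Γ : RGD Φ G) (O : Type*) extends Tw0 Γ where
  I : O → Set B
  wI : O → W
  long : ∀ o, IsLongest Φ.cs (I o) (wI o)
  cov : ∀ k, ∃ o, k ∈ I o
  orb : ∀ o, ∀ i ∈ I o, ∀ i' ∈ I o, ∃ n : ℕ, (ρ ^ n) i = i'
  stab : ∀ o j, ρ j ∈ I o ↔ j ∈ I o
  G1 : Subgroup G
  fix : ∀ g ∈ G1, σ g = g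
  U_le : ∀ o, ∀ u ∈ Γ.UJ (I o), σ u = u → u ∈ G1
  V_le : ∀ o, ∀ u ∈ Γ.VJ (I o), σ u = u → u ∈ G1
  nontriv : ∀ o, ∃ x ∈ Γ.VJ (I o), σ x = x ∧ x ≠ 1

namespace Tw

variable {Γ : RGD Φ G} {O : Type*} (T : Tw Γ O)

theorem τ_wI (o : O) : T.τ (T.wI o) = T.wI o := T.longest_fixed (T.stab o) (T.long o)

theorem wI_mul_self (o : O) : T.wI o * T.wI o = 1 := Φ.h.longest_mul_self Φ.cs (T.long o)

theorem wI_inv (o : O) : (T.wI o)⁻¹ = T.wI o := Φ.h.longest_inv Φ.cs (T.long o)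

theorem rank1' (o : O) {x : G} (hx : x ∈ Γ.VJ (T.I o)) (hx' : T.σ x = x) (h1 : x ≠ 1) :
    ∃ a ∈ Γ.UJ (T.I o), ∃ b ∈ Γ.UJ (T.I o), ∃ m, Γ.Rep m (T.wI o) ∧ a ∈ T.G1 ∧ b ∈ T.G1 ∧
      m ∈ T.G1 ∧ x = a * m * b := by
  obtain ⟨a, ha, b, hb, m, hm, h2, h3, -, e⟩ := T.rank1 (T.orb o) (T.long o) hx hx' h1
  have ha' := T.U_le o a ha h2
  have hb' := T.U_le o b hb h3
  refine ⟨a, ha, b, hb, m, hm, ha', hb', ?_, e⟩
  have := T.G1.mul_mem (T.G1.mul_mem (T.G1.inv_mem ha') (T.V_le o x hx hx')) (T.G1.inv_mem hb')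
  rw [e] at this
  simpa [mul_assoc] using this

theorem exists_rep_wI (o : O) : ∃ n ∈ T.G1, Γ.Rep n (T.wI o) := by
  obtain ⟨x, hx, hx', h1⟩ := T.nontriv o
  obtain ⟨_, -, _, -, m, hm, -, -, hm', -⟩ := T.rank1' o hx hx' h1
  exact ⟨m, hm', hm⟩

theorem wI_ne_one (o : O) : T.wI o ≠ 1 := by
  intro h
  obtain ⟨x, hx, hx', h1⟩ := T.nontriv o
  obtain ⟨a, ha, b, hb, m, hm, -, -, -, rfl⟩ := T.rank1' o hx hx' h1
  rw [h] at hm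
  exact h1 (Γ.BV _ (Subgroup.mul_mem _ (Subgroup.mul_mem _ (U_le_Bor (UJ_le_U _ ha))
      (H_le_Bor (rep_one_iff.1 hm))) (U_le_Bor (UJ_le_U _ hb))) (VJ_le_V _ hx))

theorem fixed_induction {P : W → Prop} (h1 : P 1)
    (hs : ∀ w, T.τ w = w → ∀ o, Φ.cs.length (w * T.wI o) = Φ.cs.length w + Φ.cs.length (T.wI o) →
      P w → P (w * T.wI o)) {w : W} (hw : T.τ w = w) : P w :=
  Φ.h.fixed_induction T.hτ (K := Set.univ) T.I T.wI (fun k _ => T.cov k)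
    (fun _ => Set.subset_univ _) T.orb T.long T.τ_wI h1 (fun w _ => hs w)
    (by rw [par_univ]; trivial) hw

theorem exists_rep {w : W} (hw : T.τ w = w) : ∃ n ∈ T.G1, Γ.Rep n w := by
  refine T.fixed_induction (P := fun w => ∃ n ∈ T.G1, Γ.Rep n w)
    ⟨1, T.G1.one_mem, rep_one_iff.2 Γ.H.one_mem⟩ ?_ hw
  rintro w - o - ⟨n, hn, hn'⟩
  obtain ⟨m, hm, hm'⟩ := T.exists_rep_wI o
  exact ⟨n * m, T.G1.mul_mem hn hm, hn'.mul hm'⟩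

theorem Uw_le {w : W} (hw : T.τ w = w) : ∀ u ∈ Γ.Uw w, T.σ u = u → u ∈ T.G1 := by
  refine T.fixed_induction (P := fun w => ∀ u ∈ Γ.Uw w, T.σ u = u → u ∈ T.G1) ?_ ?_ hw
  · intro u hu _
    rw [Uw_one, Subgroup.mem_bot] at hu
    rw [hu]; exact T.G1.one_mem
  · intro w hw o hl ih u hu hu'
    obtain ⟨m, hm, hm'⟩ := T.exists_rep_wI o
    obtain ⟨a, ha, b, hb, rfl⟩ := split_Uw hl hm' u hu
    obtain ⟨h1, h2⟩ := T.fixed_split_Uw hw (T.τ_wI o) hm' (T.fix m hm) ha hb hu'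
    rw [Uw_longest (T.long o)] at hb
    exact T.G1.mul_mem (T.G1.mul_mem (T.G1.mul_mem (T.G1.inv_mem hm) (ih a ha h1)) hm)
      (T.U_le o b hb h2)

theorem exists_w0 : ∃ w, IsLongest Φ.cs Set.univ w ∧ T.τ w = w := by
  obtain ⟨w, hw⟩ := Φ.exists_longest Set.univ
  exact ⟨w, hw, T.longest_fixed (by simp) hw⟩

theorem U_mem {u : G} (hu : u ∈ Γ.U) (hu' : T.σ u = u) : u ∈ T.G1 := by
  obtain ⟨w, hw, hw'⟩ := T.exists_w0
  rw [← UJ_univ, ← Uw_longest hw] at hu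
  exact T.Uw_le hw' u hu hu'

theorem exists_n0 : ∃ n ∈ T.G1, ∃ w, Γ.Rep n w ∧ IsLongest Φ.cs Set.univ w ∧
    ∀ r, Φ.Pos (Φ.act w r) ↔ ¬ Φ.Pos r := by
  obtain ⟨w, hw, hw'⟩ := T.exists_w0
  obtain ⟨n, hn, hn'⟩ := T.exists_rep hw'
  have h1 : ∀ r, Φ.Pos r → ¬ Φ.Pos (Φ.act w r) := fun r hr =>
    (Φ.longest_iff hw hr).2 (Φ.inSub_univ r)
  refine ⟨n, hn, w, hn', hw, fun r => ⟨fun h h' => h1 r h' h, fun h => ?_⟩⟩
  have := h1 _ ((Φ.pos_neg_iff r).2 h)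
  rwa [Φ.act_neg, Φ.not_pos_neg_iff] at this

theorem V_mem {u : G} (hu : u ∈ Γ.V) (hu' : T.σ u = u) : u ∈ T.G1 := by
  obtain ⟨n, hn, w, hw, -, hw'⟩ := T.exists_n0
  have h1 : n * u * n⁻¹ ∈ Γ.U := hw.conj_XS (fun r hr => (hw' r).2 hr) hu
  have := T.U_mem h1 (by simp [T.fix n hn, hu'])
  simpa [mul_assoc] using T.G1.mul_mem (T.G1.mul_mem (T.G1.inv_mem hn) this) hn

theorem U_inf : Γ.U ⊓ T.G1 = T.Fx Γ.U :=
  le_antisymm (fun _ h => ⟨h.1, T.fix _ h.2⟩) fun _ h => ⟨h.1, T.U_mem h.1 h.2⟩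

theorem τ_of_rep {n : G} {w : W} (hn : Γ.Rep n w) (hn' : n ∈ T.G1) : T.τ w = w := by
  have := T.rep_σ hn
  rw [T.fix n hn'] at this
  exact this.unique hn

/-- Bruhat normal form in the twisted group. -/
theorem bruhat {g : G} (hg : g ∈ T.G1) :
    ∃ w n a u, T.τ w = w ∧ Γ.Rep n w ∧ n ∈ T.G1 ∧ a ∈ Γ.U ∧ a ∈ T.G1 ∧ u ∈ Γ.Uw w ∧ u ∈ T.G1 ∧
      g = a * n * u := by
  obtain ⟨w, n, hn, a, ha, u, hu, rfl⟩ := Γ.bruhat g
  obtain ⟨h1, h2, -, h4⟩ := T.fixed_bruhat hn ha hu (T.fix _ hg)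
  have ha' := T.U_mem ha h2
  have hu' := T.Uw_le h1 u hu h4
  refine ⟨w, n, a, u, h1, hn, ?_, ha, ha', hu, hu', rfl⟩
  simpa [mul_assoc] using T.G1.mul_mem (T.G1.mul_mem (T.G1.inv_mem ha') hg) (T.G1.inv_mem hu')

theorem mem_G1_of_H (hH : ∀ h ∈ Γ.H, T.σ h = h → h ∈ T.G1) {g : G} (hg : T.σ g = g) :
    g ∈ T.G1 := by
  obtain ⟨w, n, hn, a, ha, u, hu, rfl⟩ := Γ.bruhat g
  obtain ⟨h1, h2, h3, h4⟩ := T.fixed_bruhat hn ha hu hg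
  obtain ⟨m, hm, hm'⟩ := T.exists_rep h1
  have := T.G1.mul_mem (hH _ (hn.mul_inv_mem hm') (by simp [h3, T.fix m hm])) hm
  exact T.G1.mul_mem (T.G1.mul_mem (T.U_mem ha h2) (by simpa using this)) (T.Uw_le h1 u hu h4)

theorem mem_Bor1 {b : G} (hb : b ∈ Γ.Bor) (hb' : b ∈ T.G1) :
    ∃ u ∈ Γ.U, ∃ h ∈ Γ.H, u ∈ T.G1 ∧ h ∈ T.G1 ∧ b = u * h := by
  obtain ⟨u, hu, h, hh, rfl⟩ := mem_Bor.1 hb
  have h1 := T.U_mem hu (T.fixed_UH hu hh (T.fix _ hb')).1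
  exact ⟨u, hu, h, hh, h1, by simpa using T.G1.mul_mem (T.G1.inv_mem h1) hb', rfl⟩

theorem card_Fx_Uw {x : ℝ}
    (hx : ∀ o, (Nat.card (T.Fx (Γ.UJ (T.I o))) : ℝ) = x ^ Φ.cs.length (T.wI o)) {w : W}
    (hw : T.τ w = w) : (Nat.card (T.Fx (Γ.Uw w)) : ℝ) = x ^ Φ.cs.length w := by
  refine T.fixed_induction (P := fun w => (Nat.card (T.Fx (Γ.Uw w)) : ℝ) = x ^ Φ.cs.length w) ?_ ?_ hw
  · have : T.Fx (Γ.Uw 1) = ⊥ := by rw [Uw_one, Tw0.Fx, bot_inf_eq]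
    simp [this]
  · intro w hw o hl ih
    obtain ⟨m, hm, hm'⟩ := T.exists_rep_wI o
    rw [T.card_Fx_Uw_mul hl hw (T.τ_wI o) hm' (T.fix m hm), Nat.cast_mul, ih,
      Uw_longest (T.long o), hx, hl, pow_add]

open Classical in
theorem card_U {x : ℝ}
    (hx : ∀ o, (Nat.card (T.Fx (Γ.UJ (T.I o))) : ℝ) = x ^ Φ.cs.length (T.wI o)) :
    (Nat.card ↥(Γ.U ⊓ T.G1) : ℝ) = x ^ (Finset.univ.filter Φ.Pos).card := by
  obtain ⟨w, hw, hw'⟩ := T.exists_w0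
  rw [U_inf, ← UJ_univ, ← Uw_longest hw, T.card_Fx_Uw hx hw', ← Φ.card_inv]
  congr 2
  ext r
  simp only [Φ.mem_inv, Finset.mem_filter, Finset.mem_univ, true_and, and_iff_left_iff_imp]
  exact fun hr => (Φ.longest_iff hw hr).2 (Φ.inSub_univ r)

open Classical in
/-- A chosen representative in the twisted group. -/
noncomputable def nOf (w : W) : G := if h : ∃ n ∈ T.G1, Γ.Rep n w then h.choose else 1

theorem nOf_spec {w : W} (hw : T.τ w = w) : T.nOf w ∈ T.G1 ∧ Γ.Rep (T.nOf w) w := by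
  have h := T.exists_rep hw
  rw [nOf, dif_pos h]
  exact h.choose_spec

theorem card_G1 [Finite G] {x : ℝ}
    (hx : ∀ o, (Nat.card (T.Fx (Γ.UJ (T.I o))) : ℝ) = x ^ Φ.cs.length (T.wI o)) {f : ℝ → ℝ}
    (hf : HasPoin Φ.cs {w | T.τ w = w} f) :
    (Nat.card T.G1 : ℝ) = Nat.card ↥(Γ.U ⊓ T.G1) * Nat.card ↥(Γ.H ⊓ T.G1) * f x := by
  obtain ⟨F, hF, hsum⟩ := hf
  have hF' : ∀ w : F, T.τ w = w := fun w => (hF w).1 w.2
  have : Nat.card (Σ w : F, ↥(Γ.U ⊓ T.G1) × ↥(Γ.H ⊓ T.G1) × T.Fx (Γ.Uw w)) = Nat.card T.G1 := by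
    refine Nat.card_eq_of_bijective (fun p => ⟨p.2.1 * (p.2.2.1 * T.nOf p.1) * p.2.2.2,
      T.G1.mul_mem (T.G1.mul_mem p.2.1.2.2 (T.G1.mul_mem p.2.2.1.2.2 (T.nOf_spec (hF' p.1)).1))
        (T.Uw_le (hF' p.1) _ p.2.2.2.2.1 p.2.2.2.2.2)⟩) ⟨?_, ?_⟩
    · rintro ⟨w, a, h, u⟩ ⟨w', a', h', u'⟩ e
      obtain ⟨h1, h2, h3, h4⟩ := bruhat_unique ((T.nOf_spec (hF' w)).2.H_mul h.2.1)
        ((T.nOf_spec (hF' w')).2.H_mul h'.2.1) a.2.1 a'.2.1 u.2.1 u'.2.1 (congrArg Subtype.val e)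
      obtain rfl : w = w' := Subtype.ext h1
      obtain rfl : a = a' := Subtype.ext h2
      obtain rfl : h = h' := Subtype.ext (mul_right_cancel h3)
      obtain rfl : u = u' := Subtype.ext h4
      rfl
    · rintro ⟨g, hg⟩
      obtain ⟨w, n, a, u, h1, hn, hn', ha, ha', hu, hu', rfl⟩ := T.bruhat hg
      obtain ⟨h2, h3⟩ := T.nOf_spec h1
      refine ⟨⟨⟨w, (hF w).2 h1⟩, ⟨a, ha, ha'⟩, ⟨n * (T.nOf w)⁻¹, hn.mul_inv_mem h3,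
        T.G1.mul_mem hn' (T.G1.inv_mem h2)⟩, ⟨u, hu, T.fix u hu'⟩⟩, Subtype.ext ?_⟩
      simp
  rw [← this, Nat.card_sigma, ← hsum x, Finset.mul_sum, ← Finset.sum_coe_sort F]
  push_cast
  refine Finset.sum_congr rfl fun w _ => ?_
  rw [Nat.card_prod, Nat.card_prod]
  push_cast
  rw [T.card_Fx_Uw hx (hF' w), mul_assoc]

theorem pos_inv_iff {w : W} (hw : T.τ w = w) (o : O) {i j : B} (hi : i ∈ T.I o) (hj : j ∈ T.I o) :
    Φ.Pos (Φ.act w⁻¹ (Φ.simple i)) ↔ Φ.Pos (Φ.act w⁻¹ (Φ.simple j)) := by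
  obtain ⟨k, rfl⟩ := T.orb o i hi j hj
  rw [← Φ.left_lt_iff_pos, ← Φ.left_lt_iff_pos, left_descent_pow T.hτ hw]

/-- The double coset rule in the twisted group. -/
theorem bn_step (o : O) {s : G} (hs : Γ.Rep s (T.wI o)) (hs' : s ∈ T.G1) {w : W} {n : G}
    (hn : Γ.Rep n w) (hn' : n ∈ T.G1) {u : G} (hu : u ∈ Γ.U) (hu' : u ∈ T.G1) :
    (∃ a ∈ Γ.U, ∃ b ∈ Γ.U, a ∈ T.G1 ∧ b ∈ T.G1 ∧ s * u * n = a * (s * n) * b) ∨
      ∃ a ∈ Γ.U, ∃ b ∈ Γ.U, ∃ m, Γ.Rep m w ∧ a ∈ T.G1 ∧ b ∈ T.G1 ∧ m ∈ T.G1 ∧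
        s * u * n = a * m * b := by
  have hw := T.τ_of_rep hn hn'
  obtain ⟨u1, h1, x, hx, rfl⟩ := split_U (T.I o) hu
  obtain ⟨f1, f2⟩ := split_U_unique (T.σ_Rad (T.stab o) h1) h1
    (UJ_le_L _ (T.σ_UJ (T.stab o) hx)) (UJ_le_L _ hx) (by rw [← map_mul]; exact T.fix _ hu')
  have g1 := T.U_mem (Rad_le_U _ h1) f1
  have g2 := T.U_le o x hx f2
  have h2 : s * u1 * s⁻¹ ∈ Γ.U := Rad_le_U _
    (Subgroup.le_normalizer_iff.1 (L_le_normalizer_Rad _) s (rep_mem_L (T.long o).1 hs) u1 h1)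
  have g3 : s * u1 * s⁻¹ ∈ T.G1 := T.G1.mul_mem (T.G1.mul_mem hs' g1) (T.G1.inv_mem hs')
  by_cases hp : ∀ i ∈ T.I o, Φ.Pos (Φ.act w⁻¹ (Φ.simple i))
  · exact Or.inl ⟨_, h2, n⁻¹ * x * n,
      hn.conj_XS' (fun r hr => Φ.pos_act_of_simple hp hr.1 hr.2) hx, g3,
      T.G1.mul_mem (T.G1.mul_mem (T.G1.inv_mem hn') g2) hn', by group⟩
  · have hp' : ∀ i ∈ T.I o, ¬ Φ.Pos (Φ.act w⁻¹ (Φ.simple i)) := fun i hi h =>
      hp fun j hj => (T.pos_inv_iff hw o hi hj).1 h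
    have hy : s * x * s⁻¹ ∈ Γ.VJ (T.I o) := hs.conj_XS (fun r hr =>
      ⟨(Φ.longest_iff (T.long o) hr.1).2 hr.2, (Φ.inSub_act_iff (T.long o).1).2 hr.2⟩) hx
    by_cases h0 : s * x * s⁻¹ = 1
    · refine Or.inl ⟨_, h2, 1, Subgroup.one_mem _, g3, Subgroup.one_mem _, ?_⟩
      calc s * (u1 * x) * n = s * u1 * s⁻¹ * (s * x * s⁻¹) * (s * n) := by group
        _ = _ := by rw [h0]; group
    · obtain ⟨a, ha, b, hb, m, hm, ha', hb', hm', e⟩ := T.rank1' o hy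
        (by simp [T.fix s hs', f2]) h0
      have hsn := hs.mul hn
      have hsn' := T.G1.mul_mem hs' hn'
      refine Or.inr ⟨s * u1 * s⁻¹ * a, Subgroup.mul_mem _ h2 (UJ_le_U _ ha),
        (s * n)⁻¹ * b * (s * n), hsn.conj_XS' (fun r hr => ?_) hb, m * (s * n), ?_,
        T.G1.mul_mem g3 ha', T.G1.mul_mem (T.G1.mul_mem (T.G1.inv_mem hsn') hb') hsn',
        T.G1.mul_mem hm' hsn', ?_⟩
      · rw [mul_inv_rev, T.wI_inv, Φ.act_mul]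
        have h3 := (Φ.pos_neg_iff _).2 ((Φ.longest_iff (T.long o) hr.1).2 hr.2)
        have h4 := Φ.not_pos_act_of_simple hp' h3
          (Φ.inSub_neg_iff.2 ((Φ.inSub_act_iff (T.long o).1).2 hr.2))
        rwa [Φ.act_neg, Φ.not_pos_neg_iff] at h4
      · have := hm.mul hsn
        rwa [← mul_assoc (T.wI o), T.wI_mul_self, one_mul] at this
      · calc s * (u1 * x) * n = s * u1 * s⁻¹ * (s * x * s⁻¹) * (s * n) := by group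
          _ = _ := by rw [e]; group

/-- The chosen representative of `w_I` as an element of the twisted group. -/
noncomputable def sO (o : O) : T.G1 := ⟨T.nOf (T.wI o), (T.nOf_spec (T.τ_wI o)).1⟩

theorem rep_sO (o : O) : Γ.Rep (T.sO o : G) (T.wI o) := (T.nOf_spec (T.τ_wI o)).2

theorem exists_U_ne_one (o : O) : ∃ x ∈ Γ.UJ (T.I o), x ∈ T.G1 ∧ x ≠ 1 := by
  obtain ⟨x, hx, hx', h1⟩ := T.nontriv o
  have hs := T.rep_sO o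
  refine ⟨T.sO o * x * (T.sO o : G)⁻¹, hs.conj_XS (fun r hr => ⟨?_,
    (Φ.inSub_act_iff (T.long o).1).2 hr.2⟩) hx, T.G1.mul_mem (T.G1.mul_mem (T.sO o).2
      (T.V_le o x hx hx')) (T.G1.inv_mem (T.sO o).2), by simpa [mul_inv_eq_one] using h1⟩
  have := (Φ.longest_iff (T.long o) ((Φ.pos_neg_iff r).2 hr.1)).2 (Φ.inSub_neg_iff.2 hr.2)
  rwa [Φ.act_neg, Φ.not_pos_neg_iff] at this

/-- The (B, N)-pair of the twisted group. -/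
noncomputable def toBN : Cfsg.BNPair T.G1 where
  B := Γ.Bor.subgroupOf T.G1
  N := Γ.N.subgroupOf T.G1
  S := Set.range T.sO
  sup_eq_top := by
    rw [eq_top_iff]
    rintro ⟨g, hg⟩ -
    obtain ⟨w, n, a, u, -, hn, hn', ha, ha', hu, hu', e⟩ := T.bruhat hg
    have e' : (⟨g, hg⟩ : T.G1) = ⟨a, ha'⟩ * ⟨n, hn'⟩ * ⟨u, hu'⟩ := Subtype.ext e
    have h1 : (⟨a, ha'⟩ : T.G1) ∈ Γ.Bor.subgroupOf T.G1 := U_le_Bor ha
    have h2 : (⟨n, hn'⟩ : T.G1) ∈ Γ.N.subgroupOf T.G1 := hn.mem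
    have h3 : (⟨u, hu'⟩ : T.G1) ∈ Γ.Bor.subgroupOf T.G1 := U_le_Bor (Uw_le_U _ hu)
    rw [e']
    exact Subgroup.mul_mem _ (Subgroup.mul_mem _ (Subgroup.mem_sup_left h1)
      (Subgroup.mem_sup_right h2)) (Subgroup.mem_sup_left h3)
  conj_mem := fun n hn t ht => by
    obtain ⟨w, hw⟩ := exists_rep_of_mem (Γ := Γ.toRGD0) hn
    exact H_le_Bor (hw.conj_H (mem_H_of_mem_Bor ht.2 ht.1))
  subset := by rintro _ ⟨o, rfl⟩; exact (T.rep_sO o).mem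
  sq_mem := by
    rintro _ ⟨o, rfl⟩
    have := (T.rep_sO o).mul (T.rep_sO o)
    rw [T.wI_mul_self] at this
    exact H_le_Bor (rep_one_iff.1 this)
  inj := by
    rintro _ ⟨o, rfl⟩ _ ⟨o', rfl⟩ h
    have h1 := eq_one_of_rep_mem_Bor ((T.rep_sO o).inv.mul (T.rep_sO o')) h
    rw [inv_mul_eq_one] at h1
    exact Subtype.ext (congrArg T.nOf h1)
  closure_sup := by
    refine le_antisymm (sup_le ((Subgroup.closure_le _).2 ?_) inf_le_right) ?_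
    · rintro _ ⟨o, rfl⟩; exact (T.rep_sO o).mem
    · rintro ⟨n, hn'⟩ hn
      obtain ⟨w, hw⟩ := exists_rep_of_mem (Γ := Γ.toRGD0) (n := n) hn
      have hw' := T.τ_of_rep hw hn'
      revert n
      refine T.fixed_induction (P := fun w => ∀ (n : G) (hn' : n ∈ T.G1),
        (⟨n, hn'⟩ : T.G1) ∈ Γ.N.subgroupOf T.G1 → Γ.Rep n w →
        (⟨n, hn'⟩ : T.G1) ∈ Subgroup.closure (Set.range T.sO) ⊔
          Γ.Bor.subgroupOf T.G1 ⊓ Γ.N.subgroupOf T.G1) ?_ ?_ hw'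
      · intro n hn' hn hw
        exact Subgroup.mem_sup_right ⟨H_le_Bor (rep_one_iff.1 hw), hn⟩
      · intro w _ o _ ih n hn' _ hw
        have h1 := hw.mul (T.rep_sO o).inv
        rw [mul_inv_cancel_right] at h1
        have := Subgroup.mul_mem _ (ih _ (T.G1.mul_mem hn' (T.G1.inv_mem (T.sO o).2)) h1.mem h1)
          (Subgroup.mem_sup_left (Subgroup.subset_closure ⟨o, rfl⟩))
        convert this using 1
        exact Subtype.ext (by simp)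
  mul_mem_union := by
    rintro _ ⟨o, rfl⟩ ⟨n, hn'⟩ hn ⟨b, hb'⟩ hb
    obtain ⟨w, hw⟩ := exists_rep_of_mem (Γ := Γ.toRGD0) (n := n) hn
    obtain ⟨u, hu, h, hh, hu', hh', rfl⟩ := T.mem_Bor1 hb hb'
    have hh1 : n⁻¹ * h * n ∈ Γ.H := by simpa using hw.inv.conj_H hh
    have hh2 : n⁻¹ * h * n ∈ T.G1 := T.G1.mul_mem (T.G1.mul_mem (T.G1.inv_mem hn') hh') hn'
    simp only [Set.mem_union, DoubleCoset.mem_doubleCoset, SetLike.mem_coe]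
    rcases T.bn_step o (T.rep_sO o) (T.sO o).2 hw hn' hu hu' with
      ⟨a, ha, b, hb, ha', hb', e⟩ | ⟨a, ha, b, hb, m, hm, ha', hb', hm', e⟩
    · refine Or.inl ⟨⟨a, ha'⟩, U_le_Bor ha, ⟨b * (n⁻¹ * h * n), T.G1.mul_mem hb' hh2⟩,
        Γ.Bor.mul_mem (U_le_Bor hb) (H_le_Bor hh1), Subtype.ext ?_⟩
      simp only [Subgroup.coe_mul]
      rw [← mul_assoc (a * _), ← e]; group
    · refine Or.inr ⟨⟨a, ha'⟩, U_le_Bor ha, ⟨n⁻¹ * m * b * (n⁻¹ * h * n),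
        T.G1.mul_mem (T.G1.mul_mem (T.G1.mul_mem (T.G1.inv_mem hn') hm') hb') hh2⟩,
        Γ.Bor.mul_mem (Γ.Bor.mul_mem (H_le_Bor (hw.inv_mul_mem hm))
          (U_le_Bor hb)) (H_le_Bor hh1), Subtype.ext ?_⟩
      simp only [Subgroup.coe_mul]
      calc (T.sO o : G) * (u * h) * n = (T.sO o * u * n) * (n⁻¹ * h * n) := by group
        _ = _ := by rw [e]; group
  conj_ne := by
    rintro _ ⟨o, rfl⟩ h
    obtain ⟨x, hx, hx', h1⟩ := T.exists_U_ne_one o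
    have hs := T.rep_sO o
    have h2 : (T.sO o : G) * T.sO o ∈ Γ.H := by
      have := hs.mul hs
      rwa [T.wI_mul_self, rep_one_iff] at this
    have h3 : T.sO o * (⟨x, hx'⟩ * (T.sO o * T.sO o)⁻¹) * T.sO o ∈
        ((Γ.Bor.subgroupOf T.G1 : Subgroup T.G1) : Set T.G1) := by
      rw [← h]
      exact ⟨_, Γ.Bor.mul_mem (U_le_Bor (UJ_le_U _ hx)) (Γ.Bor.inv_mem (H_le_Bor h2)), rfl⟩
    rw [← Uw_longest (T.long o)] at hx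
    refine h1 (eq_one_of_V_conj hs hx ?_)
    have h4 : (T.sO o : G) * (x * ((T.sO o : G) * T.sO o)⁻¹) * T.sO o ∈ Γ.Bor := h3
    simpa [mul_assoc] using h4

/-- The normal core of the Borel subgroup of the twisted group. -/
theorem normalCore_eq_bot (hc : ∀ h ∈ Γ.H, (∀ u ∈ Γ.U, u ∈ T.G1 → h * u * h⁻¹ = u) → h = 1) :
    (Γ.Bor.subgroupOf T.G1).normalCore = ⊥ := by
  rw [eq_bot_iff]
  intro g hg
  have hN := (Γ.Bor.subgroupOf T.G1).normalCore_normal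
  have hle := (Γ.Bor.subgroupOf T.G1).normalCore_le
  obtain ⟨n, hn, w, hw, -, hw'⟩ := T.exists_n0
  have hH : ∀ k ∈ (Γ.Bor.subgroupOf T.G1).normalCore, (k : G) ∈ Γ.H := by
    intro k hk
    obtain ⟨u, hu, h, hh, e⟩ := mem_Bor.1 (hle hk)
    change (k : G) = _ at e
    have h1 : n * k * n⁻¹ ∈ Γ.Bor := hle (hN.conj_mem k hk ⟨n, hn⟩)
    have h2 : n * u * n⁻¹ = 1 := by
      refine Γ.BV _ ?_ (hw.conj_XS (fun r hr h => (hw' r).1 h hr) hu)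
      have := Γ.Bor.mul_mem h1 (Γ.Bor.inv_mem (H_le_Bor (hw.conj_H hh)))
      rw [e] at this
      simpa [mul_assoc] using this
    have h3 : u = 1 := by simpa [mul_inv_eq_one] using h2
    rw [e, h3, one_mul]; exact hh
  rw [Subgroup.mem_bot]
  refine Subtype.ext (hc _ (hH g hg) fun u hu hu' => ?_)
  have h1 := hH _ (Subgroup.mul_mem _ hg (hN.conj_mem _ (Subgroup.inv_mem _ hg) ⟨u, hu'⟩))
  have h2 : (g : G) * u * (g : G)⁻¹ * u⁻¹ ∈ Γ.U :=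
    Γ.U.mul_mem (H_conj_XS (hH g hg) hu) (Γ.U.inv_mem hu)
  have := eq_one_of_U_H h2 (by simpa [mul_assoc] using h1)
  exact mul_inv_eq_one.1 this

theorem irreducible (hirr : ∀ J : Set O, J.Nonempty → Jᶜ.Nonempty →
    ∃ o ∈ J, ∃ o' ∉ J, T.wI o * T.wI o' ≠ T.wI o' * T.wI o) : T.toBN.Irreducible := by
  rintro J hJ ⟨s, hs⟩ ⟨s', ⟨o', rfl⟩, hs'⟩
  obtain ⟨o, rfl⟩ := hJ hs
  obtain ⟨a, ha, b, hb, hab⟩ := hirr {o | T.sO o ∈ J} ⟨o, hs⟩ ⟨o', hs'⟩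
  refine ⟨_, ha, _, ⟨⟨b, rfl⟩, hb⟩, fun h => hab ?_⟩
  have := eq_one_of_rep_mem_Bor ((((T.rep_sO a).mul (T.rep_sO b)).mul (T.rep_sO a).inv).mul
    (T.rep_sO b).inv) h
  calc T.wI a * T.wI b = (T.wI a * T.wI b * (T.wI a)⁻¹ * (T.wI b)⁻¹) * (T.wI b * T.wI a) := by group
    _ = _ := by rw [this, one_mul]

/-- `N¹ / H¹` is the group of fixed points of `τ` in `W`. -/
theorem exists_hom {W' : Type*} [Group W'] (ψ : W' →* W) (hψ : Function.Injective ψ)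
    (hr : ∀ w, w ∈ ψ.range ↔ T.τ w = w) :
    ∃ φ : ↥(Γ.N ⊓ T.G1) →* W', Function.Surjective φ ∧
      φ.ker = (Γ.H ⊓ T.G1).subgroupOf (Γ.N ⊓ T.G1) := by
  let π1 : ↥(Γ.N ⊓ T.G1) →* W := Γ.π.comp (Subgroup.inclusion inf_le_left)
  have hπ : ∀ n : ↥(Γ.N ⊓ T.G1), Γ.Rep (n : G) (π1 n) := fun n => ⟨n.2.1, rfl⟩
  let π2 : ↥(Γ.N ⊓ T.G1) →* ψ.range :=
    π1.codRestrict _ fun n => (hr _).2 (T.τ_of_rep (hπ n) n.2.2)
  refine ⟨(MonoidHom.ofInjective hψ).symm.toMonoidHom.comp π2, fun w => ?_, ?_⟩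
  · obtain ⟨n, hn, hn'⟩ := T.exists_rep ((hr _).1 ⟨w, rfl⟩)
    refine ⟨⟨n, hn'.mem, hn⟩, ?_⟩
    simp only [MulEquiv.toMonoidHom_eq_coe, MonoidHom.comp_apply, MonoidHom.coe_coe,
      MulEquiv.symm_apply_eq]
    exact Subtype.ext ((hπ _).unique hn')
  · ext n
    simp only [MonoidHom.mem_ker, MulEquiv.toMonoidHom_eq_coe, MonoidHom.comp_apply,
      MonoidHom.coe_coe, EmbeddingLike.map_eq_one_iff, Subgroup.mem_subgroupOf, Subgroup.mem_inf]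
    rw [Subtype.ext_iff]
    change π1 n = 1 ↔ _
    rw [← rep_one_iff]
    exact ⟨fun h => ⟨h ▸ hπ n, n.2.2⟩, fun h => (hπ n).unique h.1⟩

end Tw

/-! ### The untwisted case -/

namespace RGD

variable (Γ : RGD Φ G)

theorem UJ_single (i : B) : Γ.UJ {i} = Γ.X (Φ.simple i) :=
  le_antisymm (XS_le.2 fun r hr => by rw [Φ.eq_simple_of_inSub_single hr.1 hr.2])
    fun _ hx => mem_UJ (Φ.pos_simple i) (Φ.inSub_simple_iff.2 rfl) hx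

/-- The trivial twist. -/
def triv : Tw Γ B where
  σ := MonoidHom.id G
  ρ := 1
  τ := MulEquiv.refl W
  hτ := fun _ => rfl
  hX := fun _ _ h => h
  hH := fun _ h => h
  hn := fun i => by obtain ⟨n, hn⟩ := Γ.exists_rep (Φ.cs.simple i); exact ⟨n, hn, hn⟩
  I := fun i => {i}
  wI := Φ.cs.simple
  long := fun i => ⟨simple_mem_par _ rfl, fun j hj => by rw [Set.mem_singleton_iff.1 hj]; simp⟩
  cov := fun k => ⟨k, rfl⟩
  orb := fun o i hi i' hi' => ⟨0, by rw [Set.mem_singleton_iff.1 hi, Set.mem_singleton_iff.1 hi']; rfl⟩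
  stab := fun _ _ => Iff.rfl
  G1 := ⊤
  fix := fun _ _ => rfl
  U_le := fun _ _ _ _ => trivial
  V_le := fun _ _ _ _ => trivial
  nontriv := fun i => by
    obtain ⟨x, hx, h1⟩ := exists_ne_one (Γ := Γ) (Φ.neg (Φ.simple i))
    exact ⟨x, mem_VJ (Φ.not_pos_neg_simple i) (Φ.inSub_neg_iff.2 (Φ.inSub_simple_iff.2 rfl)) hx,
      rfl, h1⟩

theorem triv_hx {q : ℕ} (hq : ∀ i, Nat.card (Γ.X (Φ.simple i)) = q) (o : B) :
    (Nat.card (Γ.triv.Fx (Γ.UJ (Γ.triv.I o))) : ℝ) = (q : ℝ) ^ Φ.cs.length (Γ.triv.wI o) := by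
  have : Γ.triv.Fx (Γ.UJ (Γ.triv.I o)) = Γ.X (Φ.simple o) := by
    rw [← UJ_single]
    exact le_antisymm inf_le_left fun _ h => ⟨h, rfl⟩
  rw [this, hq]
  change _ = (q : ℝ) ^ Φ.cs.length (Φ.cs.simple o)
  simp

open Classical in
theorem card_U {q : ℕ} (hq : ∀ i, Nat.card (Γ.X (Φ.simple i)) = q) :
    Nat.card Γ.U = q ^ (Finset.univ.filter Φ.Pos).card := by
  have := Γ.triv.card_U (Γ.triv_hx hq)
  rw [show Γ.triv.G1 = ⊤ from rfl, inf_top_eq] at this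
  exact_mod_cast this

theorem card_Uw {q : ℕ} (hq : ∀ i, Nat.card (Γ.X (Φ.simple i)) = q) (w : W) :
    Nat.card (Γ.Uw w) = q ^ Φ.cs.length w := by
  have := Γ.triv.card_Fx_Uw (Γ.triv_hx hq) (w := w) rfl
  have e : Γ.triv.Fx (Γ.Uw w) = Γ.Uw w := le_antisymm inf_le_left fun _ h => ⟨h, rfl⟩
  rw [e] at this
  exact_mod_cast this

open Classical in
/-- The order formula. -/
theorem card_G [Finite G] {q : ℕ} (hq : ∀ i, Nat.card (Γ.X (Φ.simple i)) = q) {f : ℝ → ℝ}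
    (hf : HasPoin Φ.cs Set.univ f) :
    (Nat.card G : ℝ) = (q : ℝ) ^ (Finset.univ.filter Φ.Pos).card * Nat.card Γ.H * f q := by
  have := Γ.triv.card_G1 (Γ.triv_hx hq) (f := f) (hf.congr_set fun w => by
    simp only [Set.mem_univ, Set.mem_ofPred_eq, true_iff]; rfl)
  rw [show Γ.triv.G1 = ⊤ from rfl, inf_top_eq, inf_top_eq, Subgroup.card_top, Γ.card_U hq] at this
  exact_mod_cast this

end RGD

end CA.BN
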